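import Mathlib
import Cfsg.Prelude.Def_Amalgam
import Cfsg.Prelude.Def_LocalStructure
import Cfsg.Agent.Lib.Helper12.Conj
import Cfsg.Agent.Lib.Helper12.Residual
import Cfsg.Agent.Lib.Helper15.CosetGraph
import Cfsg.Agent.Lib.Helper17.Amalg1
import Cfsg.Agent.Lib.Helper17.Amalg2
import Cfsg.Agent.Lib.Helper17.Amalg3
import Cfsg.Agent.Lib.Helper17.Amalg4
import Cfsg.Agent.Lib.Helper17.Amalg5

set_option autoImplicit false
open Cfsg

namespace Cfsg.Agent.Lib.Helper17

open Cfsg.Agent.Lib.Helper15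
open Cfsg.Agent.Lib.Helper12 (cj cj_sup cj_le_iff cj_eq_of_normal mem_cj conj_mem_cj cj_inf card_cj
  isPGroup_cj mem_normalizer_iff_cj normalizer_cj relIndex_cj cj_mul cj_one cjEquiv centralizer_cj)

open scoped commutatorElement

variable {X : Type*} [Group X]

/-- Conjugation carries `Z_H` into `Z_{gHg⁻¹}`. -/
theorem conj_mem_sylowCenterClosure_cj {p : ℕ} [Fact p.Prime] (H : Subgroup X) [Finite H] (g : X)
    {z : X} (hz : z ∈ sylowCenterClosure p H) : g * z * g⁻¹ ∈ sylowCenterClosure p (cj g H) := by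
  have key : sylowCenterClosure p H ≤
      (sylowCenterClosure p (cj g H)).comap (MulAut.conj g).toMonoidHom := by
    conv_lhs => unfold sylowCenterClosure
    apply iSup_le
    intro S
    unfold omegaOne
    rw [Subgroup.closure_le]
    rintro x ⟨hx12, hx3⟩
    show g * x * g⁻¹ ∈ sylowCenterClosure p (cj g H)
    have hsurj : Function.Surjective (cjEquiv g H).toMonoidHom := (cjEquiv g H).surjective
    have hmap : ((S.mapSurjective hsurj : Sylow p (cj g H)) : Subgroup (cj g H)).map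
        (cj g H).subtype = cj g ((S : Subgroup H).map H.subtype) := by
      rw [Sylow.coe_mapSurjective, Subgroup.map_map]
      show _ = Subgroup.map (MulAut.conj g).toMonoidHom (Subgroup.map H.subtype ↑S)
      rw [Subgroup.map_map]
      rfl
    have hle := le_iSup (fun S : Sylow p (cj g H) => omegaOne p (((S : Subgroup (cj g H)).map
        (cj g H).subtype) ⊓ Subgroup.centralizer (((S : Subgroup (cj g H)).map
        (cj g H).subtype : Subgroup X) : Set X))) (S.mapSurjective hsurj)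
    simp only [hmap] at hle
    apply hle
    apply Subgroup.subset_closure
    refine ⟨?_, ?_⟩
    · rw [centralizer_cj, ← cj_inf]
      exact conj_mem_cj hx12
    · rw [conj_pow, hx3]; group
  exact key hz

variable {M₁ M₂ : Subgroup X}

theorem conj_mem_vertexZ {p : ℕ} [Fact p.Prime] (h : IsCharPAmalgamPair p M₁ M₂)
    (ν : CosetVertex M₁ M₂) (g : X) {z : X} (hz : z ∈ vertexZ p ν) :
    g * z * g⁻¹ ∈ vertexZ p (g • ν) := by
  haveI := finite_stabilizer h ν
  have := conj_mem_sylowCenterClosure_cj _ g hz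
  show g * z * g⁻¹ ∈ sylowCenterClosure p (MulAction.stabilizer X (g • ν))
  rw [MulAction.stabilizer_smul_eq_stabilizer_map_conj]
  exact this

theorem dist_smul_le (hgen : M₁ ⊔ M₂ = ⊤) (g : X) (a b : CosetVertex M₁ M₂) :
    (cosetGraph M₁ M₂).dist (g • a) (g • b) ≤ (cosetGraph M₁ M₂).dist a b := by
  obtain ⟨w, hw⟩ := (cosetGraph_connected hgen).exists_walk_length_eq_dist a b
  let f : cosetGraph M₁ M₂ →g cosetGraph M₁ M₂ := ⟨fun v => g • v, fun hadj => adj_smul g hadj⟩
  have := SimpleGraph.dist_le (w.map f)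
  rw [SimpleGraph.Walk.length_map, hw] at this
  exact this

theorem vertexZ_le_vertexVIter {p : ℕ} {k : ℕ} {δ ν : CosetVertex M₁ M₂}
    (hd : (cosetGraph M₁ M₂).dist δ ν ≤ k) : vertexZ p ν ≤ vertexVIter p M₁ M₂ k δ :=
  le_iSup (fun μ : {μ : CosetVertex M₁ M₂ // (cosetGraph M₁ M₂).dist δ μ ≤ k} =>
    vertexZ p (μ : CosetVertex M₁ M₂)) ⟨ν, hd⟩

theorem vertexVIter_le_of_adj {p : ℕ} (hgen : M₁ ⊔ M₂ = ⊤) {δ μ : CosetVertex M₁ M₂}
    (hadj : (cosetGraph M₁ M₂).Adj δ μ) (k : ℕ) :
    vertexVIter p M₁ M₂ k μ ≤ vertexVIter p M₁ M₂ (k + 1) δ := by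
  conv_lhs => unfold vertexVIter
  apply iSup_le
  rintro ⟨ν, hν⟩
  apply vertexZ_le_vertexVIter
  show (cosetGraph M₁ M₂).dist δ ν ≤ k + 1
  have h1 := (cosetGraph_connected hgen).dist_triangle (u := δ) (v := μ) (w := ν)
  have h2 : (cosetGraph M₁ M₂).dist δ μ = 1 := SimpleGraph.dist_eq_one_iff_adj.2 hadj
  omega

theorem stabilizer_le_normalizer_vertexVIter {p : ℕ} [Fact p.Prime]
    (h : IsCharPAmalgamPair p M₁ M₂) (μ : CosetVertex M₁ M₂) (k : ℕ) :
    MulAction.stabilizer X μ ≤ Subgroup.normalizer (vertexVIter p M₁ M₂ k μ : Set X) := by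
  apply le_normalizer_of_conj_mem
  intro g hg z hz
  have key : vertexVIter p M₁ M₂ k μ ≤
      (vertexVIter p M₁ M₂ k μ).comap (MulAut.conj g).toMonoidHom := by
    conv_lhs => unfold vertexVIter
    apply iSup_le
    rintro ⟨ν, hν⟩ y hy
    show g * y * g⁻¹ ∈ vertexVIter p M₁ M₂ k μ
    have h1 := conj_mem_vertexZ h ν g hy
    refine vertexZ_le_vertexVIter ?_ h1
    have h2 := dist_smul_le h.1.1 g μ ν
    rw [MulAction.mem_stabilizer_iff.1 hg] at h2
    exact h2.trans hν
  exact key hz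

theorem exists_adj (δ : CosetVertex M₁ M₂) : ∃ μ, (cosetGraph M₁ M₂).Adj δ μ := by
  rcases δ with a | a
  · obtain ⟨x, rfl⟩ := QuotientGroup.mk_surjective a
    exact ⟨_, adj_mk M₁ M₂ x⟩
  · obtain ⟨x, rfl⟩ := QuotientGroup.mk_surjective a
    exact ⟨_, (adj_mk M₁ M₂ x).symm⟩

theorem dvd_card_stabilizer {p : ℕ} (h : IsCharPAmalgamPair p M₁ M₂) (δ : CosetVertex M₁ M₂) :
    p ∣ Nat.card (MulAction.stabilizer X δ) := by
  obtain ⟨-, -, -, d1, d2, -⟩ := h
  rcases δ with a | a
  · obtain ⟨x, rfl⟩ := QuotientGroup.mk_surjective a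
    rw [stabilizer_inl, card_cj]; exact d1
  · obtain ⟨x, rfl⟩ := QuotientGroup.mk_surjective a
    rw [stabilizer_inr, card_cj]; exact d2

theorem sylowCenterClosure_ne_bot {p : ℕ} [Fact p.Prime] (H : Subgroup X) [Finite H]
    (hd : p ∣ Nat.card H) : sylowCenterClosure p H ≠ ⊥ := by
  have hp : p.Prime := Fact.out
  obtain ⟨S⟩ : Nonempty (Sylow p H) := inferInstance
  have hS1 : Nontrivial (S : Subgroup H) := by
    rw [← Finite.one_lt_card_iff_nontrivial, Sylow.card_eq_multiplicity]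
    apply Nat.one_lt_pow _ hp.one_lt
    exact (hp.factorization_pos_of_dvd Nat.card_pos.ne' hd).ne'
  haveI := S.isPGroup'.center_nontrivial
  have hc : IsPGroup p (Subgroup.center (S : Subgroup H)) := S.isPGroup'.to_subgroup _
  have hdc : p ∣ Nat.card (Subgroup.center (S : Subgroup H)) := by
    rcases hc.card_eq_or_dvd with h1 | h1
    · exact absurd h1 (Finite.one_lt_card_iff_nontrivial.2 inferInstance).ne'
    · exact h1
  obtain ⟨z, hz⟩ := exists_prime_orderOf_dvd_card' p hdc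
  intro hbot
  have hmem : (((z : (S : Subgroup H)) : H) : X) ∈ sylowCenterClosure p H := by
    refine (le_iSup (fun S : Sylow p H => omegaOne p (((S : Subgroup H).map H.subtype) ⊓
      Subgroup.centralizer (((S : Subgroup H).map H.subtype : Subgroup X) : Set X))) S) ?_
    apply Subgroup.subset_closure
    refine ⟨Subgroup.mem_inf.2 ⟨⟨_, (z : (S : Subgroup H)).2, rfl⟩, ?_⟩, ?_⟩
    · rw [Subgroup.mem_centralizer_iff]
      rintro _ ⟨s, hs, rfl⟩
      have := Subgroup.mem_center_iff.1 z.2 ⟨s, hs⟩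
      exact congrArg (fun t : (S : Subgroup H) => ((t : H) : X)) this
    · have h1 : z ^ p = 1 := by
        have := pow_orderOf_eq_one z
        rwa [hz] at this
      have := congrArg (fun t : Subgroup.center (S : Subgroup H) => (((t : (S : Subgroup H)) : H) : X)) h1
      simpa using this
  rw [hbot, Subgroup.mem_bot] at hmem
  have hz1 : z = 1 := by
    apply Subtype.ext; apply Subtype.ext; apply Subtype.ext
    exact hmem
  rw [hz1, orderOf_one] at hz
  exact hp.one_lt.ne hz

/-- `L = T · O^p(L)` for `L` the `p`-element closure. -/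
theorem mem_mul_pResidual {p : ℕ} [Fact p.Prime] (L T : Subgroup X) [Finite L] (hTL : T ≤ L)
    (hT : IsPGroup p T) (hrel : ¬ p ∣ T.relIndex L) {l : X} (hl : l ∈ L) :
    ∃ s ∈ T, ∃ r ∈ (pResidual p ↥L).map L.subtype, l = s * r := by
  have h2 : IsPGroup p (T.subgroupOf L) := hT.comap_subtype
  obtain ⟨s, hs, r, hr, e⟩ := Cfsg.Agent.Lib.Helper12.sylow_mul_pResidual (h2.toSylow hrel) ⟨l, hl⟩
  have hs' : s ∈ T.subgroupOf L := hs
  rw [Subgroup.mem_subgroupOf] at hs'
  refine ⟨s, hs', r, ⟨r, hr, rfl⟩, ?_⟩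
  have := congrArg Subtype.val e
  simpa using this

theorem not_comm_le_vertexVIter {p : ℕ} [Fact p.Prime] (h : IsSpeAmalgamPair p M₁ M₂)
    (lam : CosetVertex M₁ M₂) (n : ℕ) (hn : 2 ≤ n)
    (hVQ : vertexVIter p M₁ M₂ n lam ≤ vertexQ p lam) :
    ¬ ⁅vertexVIter p M₁ M₂ n lam,
      ((pResidual p ↥(pElementClosure p (MulAction.stabilizer X lam))).map
        (pElementClosure p (MulAction.stabilizer X lam)).subtype)⁆ ≤
      vertexVIter p M₁ M₂ (n - 2) lam := by
  intro hcon
  have hgen := h.1.1.1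
  obtain ⟨μ, hμ⟩ := exists_adj lam
  haveI := finite_stabilizer h.1 lam
  haveI := finite_stabilizer h.1 μ
  obtain ⟨S⟩ : Nonempty (Sylow p ↥(edgeStabilizer lam μ)) := inferInstance
  set T : Subgroup X := (S : Subgroup ↥(edgeStabilizer lam μ)).map (edgeStabilizer lam μ).subtype
    with hT
  have hTE : T ≤ edgeStabilizer lam μ := Subgroup.map_subtype_le _
  have hTp : IsPGroup p T := S.isPGroup'.map _
  have hTrel : ¬ p ∣ T.relIndex (MulAction.stabilizer X lam) := relIndex_edge_sylow h.1 hμ S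
  have hQT : pCoreOf p (MulAction.stabilizer X lam) ≤ T := pCoreOf_le_of_relIndex _ _ hTrel
  set W : Subgroup X := vertexVIter p M₁ M₂ (n - 1) μ with hW
  have hWV : W ≤ vertexVIter p M₁ M₂ n lam := by
    have := vertexVIter_le_of_adj (p := p) hgen hμ (n - 1)
    rwa [Nat.sub_add_cancel (by omega)] at this
  have hVW : vertexVIter p M₁ M₂ (n - 2) lam ≤ W := by
    have := vertexVIter_le_of_adj (p := p) hgen hμ.symm (n - 2)
    have e : n - 2 + 1 = n - 1 := by omega
    rwa [e] at this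
  have nμ : MulAction.stabilizer X μ ≤ Subgroup.normalizer (W : Set X) :=
    stabilizer_le_normalizer_vertexVIter h.1 μ _
  have hWT : W ≤ T := (hWV.trans hVQ).trans hQT
  set L : Subgroup X := pElementClosure p (MulAction.stabilizer X lam) with hL
  have hLH : L ≤ MulAction.stabilizer X lam := pElementClosure_le _ _
  haveI : Finite L := Finite.of_injective (Subgroup.inclusion hLH) (Subgroup.inclusion_injective _)
  have hTL : T ≤ L := le_pElementClosure (hTE.trans inf_le_left) hTp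
  have hrelL : ¬ p ∣ T.relIndex L := by
    intro hd
    apply hTrel
    rw [← Subgroup.relIndex_mul_relIndex T L _ hTL hLH]
    exact Dvd.dvd.mul_right hd _
  have nR : (pResidual p ↥L).map L.subtype ≤ Subgroup.normalizer (W : Set X) := by
    apply le_normalizer_of_conj_mem
    intro r hr w hw
    have h1 : ⁅w, r⁆ ∈ W := hVW (hcon (Subgroup.commutator_mem_commutator (hWV hw) hr))
    rw [commutatorElement_def] at h1
    have h2 := W.mul_mem (W.inv_mem hw) h1
    have h3 : w⁻¹ * (w * r * w⁻¹ * r⁻¹) = (r * w * r⁻¹)⁻¹ := by group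
    rw [h3] at h2
    exact (Subgroup.inv_mem_iff _).1 h2
  have nL : L ≤ Subgroup.normalizer (W : Set X) := by
    intro l hl
    obtain ⟨s, hs, r, hr, rfl⟩ := mem_mul_pResidual L T hTL hTp hrelL hl
    exact Subgroup.mul_mem _ (nμ (hTE hs).2) (nR hr)
  have hWbot : W = ⊥ := spe_eq_bot h lam μ hμ S T hT W hWT nL
    ((pElementClosure_le _ _).trans nμ)
  have hZ : vertexZ p μ ≤ W := vertexZ_le_vertexVIter (by simp)
  rw [hWbot] at hZ
  exact sylowCenterClosure_ne_bot _ (dvd_card_stabilizer h.1 μ) (le_bot_iff.1 hZ)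

end Cfsg.Agent.Lib.Helper17
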