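import Mathlib
import Cfsg.Prelude.Def_Amalgam
import Cfsg.Prelude.Def_LocalStructure
import Cfsg.Agent.Lib.Helper12.Conj
import Cfsg.Agent.Lib.Helper12.Residual
import Cfsg.Agent.Lib.Helper15.CosetGraph
import Cfsg.Agent.Lib.Helper17.Amalg1
import Cfsg.Agent.Lib.Helper17.Amalg2
import Cfsg.Agent.Lib.Helper17.Amalg3
import Cfsg.Agent.Lib.Helper17.Amalg4
import Cfsg.Agent.Lib.Helper17.Amalg5
import Cfsg.Agent.Lib.Helper17.Amalg6

set_option autoImplicit false
open Cfsg

namespace Cfsg.Agent.Lib.Helper17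

open Cfsg.Agent.Lib.Helper15
open Cfsg.Agent.Lib.Helper12 (cj cj_sup cj_le_iff cj_eq_of_normal mem_cj conj_mem_cj cj_inf card_cj
  isPGroup_cj mem_normalizer_iff_cj normalizer_cj relIndex_cj cj_mul cj_one cjEquiv centralizer_cj)
open scoped commutatorElement Pointwise

variable {X : Type*} [Group X]

theorem lcs_succ_le (Q : Subgroup X) (i : ℕ) :
    Q.lowerCentralSeries (i + 1) ≤ Q.lowerCentralSeries i := by
  induction i with
  | zero =>
    rw [Subgroup.lowerCentralSeries_succ, Subgroup.lowerCentralSeries_zero, Subgroup.commutator_le]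
    intro a ha b hb
    rw [commutatorElement_def]
    exact Q.mul_mem (Q.mul_mem (Q.mul_mem ha hb) (Q.inv_mem ha)) (Q.inv_mem hb)
  | succ i ih =>
    rw [Subgroup.lowerCentralSeries_succ, Subgroup.lowerCentralSeries_succ Q i]
    exact Subgroup.commutator_mono ih le_rfl

theorem lcs_conj_mem (Q : Subgroup X) (i : ℕ) {q x : X} (hq : q ∈ Q)
    (hx : x ∈ Q.lowerCentralSeries i) : q * x * q⁻¹ ∈ Q.lowerCentralSeries i := by
  have h1 : ⁅x, q⁆ ∈ Q.lowerCentralSeries (i + 1) := Subgroup.commutator_mem_commutator hx hq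
  have h2 := lcs_succ_le Q i h1
  have h3 : q * x * q⁻¹ = ⁅x, q⁆⁻¹ * x := by
    rw [commutatorElement_def]; group
  rw [h3]
  exact Subgroup.mul_mem _ (Subgroup.inv_mem _ h2) hx

/-- A Nakayama-type lemma for nilpotent groups. -/
theorem le_of_le_sup_commutator (Q V W : Subgroup X) (hQ : Group.IsNilpotent Q) (hVQ : V ≤ Q)
    (hWQ : W ≤ Q) (hn : Q ≤ Subgroup.normalizer (W : Set X)) (h : V ≤ W ⊔ ⁅V, Q⁆) : V ≤ W := by
  have key : ∀ i, V ≤ W ⊔ Q.lowerCentralSeries i := by
    intro i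
    induction i with
    | zero => exact hVQ.trans le_sup_right
    | succ i ih =>
      refine h.trans (sup_le le_sup_left ?_)
      refine (Subgroup.commutator_mono ih le_rfl).trans ?_
      rw [Subgroup.commutator_le]
      intro x hx q hq
      have hnorm : W ≤ Subgroup.normalizer (Q.lowerCentralSeries i : Set X) :=
        hWQ.trans (le_normalizer_of_conj_mem fun g hg y hy => lcs_conj_mem Q i hg hy)
      have hx' : x ∈ ((W ⊔ Q.lowerCentralSeries i : Subgroup X) : Set X) := hx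
      rw [Subgroup.coe_mul_of_left_le_normalizer_right W _ hnorm] at hx'
      obtain ⟨w, hw, c, hc, rfl⟩ := Set.mem_mul.1 hx'
      have e : ⁅w * c, q⁆ = (w * ⁅c, q⁆ * w⁻¹) * ⁅w, q⁆ := by
        simp only [commutatorElement_def]; group
      rw [e]
      apply Subgroup.mul_mem
      · apply (le_sup_right : Q.lowerCentralSeries (i + 1) ≤ W ⊔ Q.lowerCentralSeries (i + 1))
        exact lcs_conj_mem Q (i + 1) (hWQ hw) (Subgroup.commutator_mem_commutator hc hq)
      · apply (le_sup_left : W ≤ W ⊔ Q.lowerCentralSeries (i + 1))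
        have h1 := (Subgroup.mem_normalizer_iff.1 (hn hq) w⁻¹).1 (W.inv_mem hw)
        have e2 : ⁅w, q⁆ = w * (q * w⁻¹ * q⁻¹) := by
          rw [commutatorElement_def]; group
        rw [e2]
        exact W.mul_mem hw h1
  obtain ⟨n, hn'⟩ := (Subgroup.isNilpotent_iff_lowerCentralSeries Q).1 hQ
  have := key n
  rwa [hn', sup_bot_eq] at this

theorem omegaZ_le_sylowCenterClosure {p : ℕ} [Fact p.Prime] (H T : Subgroup X) (hTH : T ≤ H)
    (hT : IsPGroup p T) (hrel : ¬ p ∣ T.relIndex H) :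
    omegaOne p (T ⊓ Subgroup.centralizer (T : Set X)) ≤ sylowCenterClosure p H := by
  have h2 : IsPGroup p (T.subgroupOf H) := hT.comap_subtype
  have hrel : ¬ p ∣ (T.subgroupOf H).index := hrel
  have hmap : ((h2.toSylow hrel : Sylow p H) : Subgroup H).map H.subtype = T := by
    rw [IsPGroup.toSylow_coe, Subgroup.map_subgroupOf_eq_of_le hTH]
  have hle := le_iSup (fun S : Sylow p H => omegaOne p (((S : Subgroup H).map H.subtype) ⊓
      Subgroup.centralizer (((S : Subgroup H).map H.subtype : Subgroup X) : Set X)))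
      (h2.toSylow hrel)
  simp only [hmap] at hle
  exact hle

variable {M₁ M₂ : Subgroup X}

theorem edge_norm_eq {p : ℕ} [Fact p.Prime] (h : IsSpeAmalgamPair p M₁ M₂)
    {δ μ : CosetVertex M₁ M₂} (hμ : (cosetGraph M₁ M₂).Adj δ μ) (T : Subgroup X)
    (hTE : T ≤ MulAction.stabilizer X δ ⊓ MulAction.stabilizer X μ) (hTp : IsPGroup p T)
    (hrE : ¬ p ∣ T.relIndex (MulAction.stabilizer X δ ⊓ MulAction.stabilizer X μ)) :
    MulAction.stabilizer X δ ⊓ Subgroup.normalizer (T : Set X) =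
      MulAction.stabilizer X μ ⊓ Subgroup.normalizer (T : Set X) := by
  obtain ⟨x, ⟨rfl, rfl⟩ | ⟨rfl, rfl⟩⟩ := adj_cases hμ
  · rw [stabilizer_inl, stabilizer_inr] at hTE hrE ⊢
    rw [← cj_inf] at hTE hrE
    exact norm_eq_aux h x T hTE hTp hrE
  · rw [stabilizer_inl, stabilizer_inr] at hTE hrE ⊢
    rw [inf_comm, ← cj_inf] at hTE hrE
    exact (norm_eq_aux h x T hTE hTp hrE).symm

theorem exists_smul_neighbour {δ μ μ' : CosetVertex M₁ M₂} (h1 : (cosetGraph M₁ M₂).Adj δ μ)
    (h2 : (cosetGraph M₁ M₂).Adj δ μ') : ∃ g ∈ MulAction.stabilizer X δ, g • μ = μ' := by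
  obtain ⟨x, ⟨hx1, hx2⟩ | ⟨hx1, hx2⟩⟩ := adj_cases h1 <;>
  obtain ⟨y, ⟨hy1, hy2⟩ | ⟨hy1, hy2⟩⟩ := adj_cases h2
  · refine ⟨y * x⁻¹, ?_, ?_⟩
    · rw [MulAction.mem_stabilizer_iff]
      conv_lhs => rw [hx1]
      rw [smul_inl, inv_mul_cancel_right, hy1]
    · rw [hx2, smul_inr, inv_mul_cancel_right, hy2]
  · rw [hx1] at hy1; exact absurd hy1 (by simp)
  · rw [hx1] at hy1; exact absurd hy1 (by simp)
  · refine ⟨y * x⁻¹, ?_, ?_⟩
    · rw [MulAction.mem_stabilizer_iff]
      conv_lhs => rw [hx1]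
      rw [smul_inr, inv_mul_cancel_right, hy1]
    · rw [hx2, smul_inl, inv_mul_cancel_right, hy2]

theorem not_comm_le_comm {p : ℕ} [Fact p.Prime] (h : IsSpeAmalgamPair p M₁ M₂)
    (lam : CosetVertex M₁ M₂) (n : ℕ) (hn : 1 ≤ n)
    (hVQ : vertexVIter p M₁ M₂ n lam ≤ vertexQ p lam) :
    ¬ ⁅vertexVIter p M₁ M₂ n lam,
      ((pResidual p ↥(pElementClosure p (MulAction.stabilizer X lam))).map
        (pElementClosure p (MulAction.stabilizer X lam)).subtype)⁆ ≤
      ⁅vertexVIter p M₁ M₂ n lam, vertexQ p lam⁆ := by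
  intro hcon
  have hgen := h.1.1.1
  have hconn : (cosetGraph M₁ M₂).Connected := cosetGraph_connected hgen
  have hp : p.Prime := Fact.out
  obtain ⟨μ, hμ⟩ := exists_adj lam
  haveI := finite_stabilizer h.1 lam
  haveI := finite_stabilizer h.1 μ
  haveI : Finite ↥(edgeStabilizer lam μ) :=
    Finite.of_injective (Subgroup.inclusion inf_le_left) (Subgroup.inclusion_injective _)
  obtain ⟨S⟩ : Nonempty (Sylow p ↥(edgeStabilizer lam μ)) := inferInstance
  set T : Subgroup X := (S : Subgroup ↥(edgeStabilizer lam μ)).map (edgeStabilizer lam μ).subtype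
    with hT
  have hTE : T ≤ edgeStabilizer lam μ := Subgroup.map_subtype_le _
  have hTp : IsPGroup p T := S.isPGroup'.map _
  have hTrel : ¬ p ∣ T.relIndex (MulAction.stabilizer X lam) := relIndex_edge_sylow h.1 hμ S
  have hrE : ¬ p ∣ T.relIndex (edgeStabilizer lam μ) := by
    have : T.relIndex (edgeStabilizer lam μ) = (S : Subgroup ↥(edgeStabilizer lam μ)).index := by
      rw [hT, Subgroup.relIndex, Subgroup.subgroupOf,
        Subgroup.comap_map_eq_self_of_injective (Subgroup.subtype_injective _)]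
    rw [this]
    exact S.not_dvd_index
  have hTrelμ : ¬ p ∣ T.relIndex (MulAction.stabilizer X μ) := by
    rw [← Subgroup.relIndex_mul_relIndex T (edgeStabilizer lam μ) _ hTE inf_le_right, hp.dvd_mul]
    rintro (h1 | h1)
    · exact hrE h1
    · rw [Subgroup.inf_relIndex_right] at h1
      exact relIndex_edge h.1 hμ.symm h1
  have hQT : pCoreOf p (MulAction.stabilizer X lam) ≤ T := pCoreOf_le_of_relIndex _ _ hTrel
  set V : Subgroup X := vertexVIter p M₁ M₂ n lam with hV
  set W : Subgroup X := vertexVIter p M₁ M₂ (n - 1) μ with hW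
  have hWV : W ≤ V := by
    have := vertexVIter_le_of_adj (p := p) hgen hμ (n - 1)
    rwa [Nat.sub_add_cancel (by omega)] at this
  have nμ : MulAction.stabilizer X μ ≤ Subgroup.normalizer (W : Set X) :=
    stabilizer_le_normalizer_vertexVIter h.1 μ _
  have nlam : MulAction.stabilizer X lam ≤ Subgroup.normalizer (V : Set X) :=
    stabilizer_le_normalizer_vertexVIter h.1 lam _
  set L : Subgroup X := pElementClosure p (MulAction.stabilizer X lam) with hL
  have hLH : L ≤ MulAction.stabilizer X lam := pElementClosure_le _ _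
  haveI : Finite L := Finite.of_injective (Subgroup.inclusion hLH) (Subgroup.inclusion_injective _)
  have hTL : T ≤ L := le_pElementClosure (hTE.trans inf_le_left) hTp
  have hrelL : ¬ p ∣ T.relIndex L := by
    intro hd
    apply hTrel
    rw [← Subgroup.relIndex_mul_relIndex T L _ hTL hLH]
    exact Dvd.dvd.mul_right hd _
  set R : Subgroup X := (pResidual p ↥L).map L.subtype with hR
  have hNeq := edge_norm_eq h hμ T hTE hTp hrE
  -- factorization of the vertex stabilizer
  have hfac : ∀ g ∈ MulAction.stabilizer X lam, ∃ r ∈ R, ∃ e ∈ MulAction.stabilizer X μ,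
      g = r * e := by
    intro g hg
    obtain ⟨o, ho, hog⟩ := frattini_aux L T hTL hTp hrelL g
      (fun y hy => conj_mem_pElementClosure _ hg hy)
    obtain ⟨s, hs, r₀, hr₀, rfl⟩ := mem_mul_pResidual L T hTL hTp hrelL ho
    have h1 : s * r₀ * g ∈ MulAction.stabilizer X lam ⊓ Subgroup.normalizer (T : Set X) :=
      Subgroup.mem_inf.2 ⟨Subgroup.mul_mem _ (hLH ho) hg, hog⟩
    rw [hNeq] at h1
    refine ⟨r₀⁻¹, R.inv_mem hr₀, s⁻¹ * (s * r₀ * g), ?_, by group⟩
    exact Subgroup.mul_mem _ (Subgroup.inv_mem _ (hTE hs).2) (Subgroup.mem_inf.1 h1).1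
  set K : Subgroup X := W ⊔ ⁅V, R⁆ with hK
  have hE : ∀ g ∈ MulAction.stabilizer X lam, ∀ w ∈ W, g * w * g⁻¹ ∈ K := by
    intro g hg w hw
    obtain ⟨r, hr, e, he, rfl⟩ := hfac g hg
    have hw' : e * w * e⁻¹ ∈ W := (Subgroup.mem_normalizer_iff.1 (nμ he) w).1 hw
    have h1 : ⁅e * w * e⁻¹, r⁆ ∈ ⁅V, R⁆ := Subgroup.commutator_mem_commutator (hWV hw') hr
    have e1 : r * e * w * (r * e)⁻¹ = ⁅e * w * e⁻¹, r⁆⁻¹ * (e * w * e⁻¹) := by
      rw [commutatorElement_def]; group
    rw [e1]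
    exact K.mul_mem (K.inv_mem ((le_sup_right : ⁅V, R⁆ ≤ K) h1)) ((le_sup_left : W ≤ K) hw')
  have hZμW : vertexZ p μ ≤ W := vertexZ_le_vertexVIter (by simp)
  have hVK : V ≤ K := by
    conv_lhs => rw [hV]; unfold vertexVIter
    apply iSup_le
    rintro ⟨ν, hν⟩
    show vertexZ p ν ≤ K
    by_cases hne : lam = ν
    · subst hne
      show sylowCenterClosure p (MulAction.stabilizer X lam) ≤ K
      unfold sylowCenterClosure
      apply iSup_le
      intro S₁ z hz
      obtain ⟨g, hg⟩ := exists_smul_sylow_le _ T hTrel S₁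
      have hle : ((g • S₁ : Sylow p ↥(MulAction.stabilizer X lam)) :
          Subgroup ↥(MulAction.stabilizer X lam)) ≤ T.subgroupOf (MulAction.stabilizer X lam) :=
        Subgroup.map_le_iff_le_comap.1 hg
      have heq : T.subgroupOf (MulAction.stabilizer X lam) = _ :=
        (g • S₁).is_maximal' (hTp.comap_subtype) hle
      have hmap : ((g • S₁ : Sylow p ↥(MulAction.stabilizer X lam)) :
          Subgroup ↥(MulAction.stabilizer X lam)).map (MulAction.stabilizer X lam).subtype = T := by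
        rw [← heq, Subgroup.map_subgroupOf_eq_of_le (hTE.trans inf_le_left)]
      have h1 := conj_mem_omegaZ _ S₁ g hz
      rw [hmap] at h1
      have h2 : (g : X) * z * (g : X)⁻¹ ∈ W :=
        hZμW (omegaZ_le_sylowCenterClosure _ T (hTE.trans inf_le_right) hTp hTrelμ h1)
      have h3 := hE (g : X)⁻¹ (Subgroup.inv_mem _ g.2) _ h2
      have e1 : (g : X)⁻¹ * ((g : X) * z * (g : X)⁻¹) * ((g : X)⁻¹)⁻¹ = z := by group
      rwa [e1] at h3
    · obtain ⟨μ', hμ'1, hμ'2⟩ := exists_adj_dist_lt hconn hne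
      obtain ⟨g, hg, rfl⟩ := exists_smul_neighbour hμ hμ'1
      intro z hz
      have h1 := conj_mem_vertexZ h.1 ν g⁻¹ hz
      have h2 : (cosetGraph M₁ M₂).dist μ (g⁻¹ • ν) ≤ n - 1 := by
        have := dist_smul_le hgen g⁻¹ (g • μ) ν
        rw [inv_smul_smul] at this
        omega
      have h3 := vertexZ_le_vertexVIter (p := p) h2 h1
      have h4 := hE g hg _ h3
      have e1 : g * (g⁻¹ * z * g⁻¹⁻¹) * g⁻¹ = z := by group
      rwa [e1] at h4
  set Q : Subgroup X := pCoreOf p (MulAction.stabilizer X lam) with hQ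
  have hQp : IsPGroup p Q := hTp.to_le hQT
  haveI : Finite Q := Finite.of_injective (Subgroup.inclusion (pCoreOf_le p _))
    (Subgroup.inclusion_injective _)
  have hVW : V ≤ W := by
    apply le_of_le_sup_commutator Q V W hQp.isNilpotent hVQ (hWV.trans hVQ)
      ((hQT.trans (hTE.trans inf_le_right)).trans nμ)
    exact hVK.trans (sup_le le_sup_left (hcon.trans le_sup_right))
  have hVeq : V = W := le_antisymm hVW hWV
  have hVbot : V = ⊥ := eq_bot_of_normalized h.1.1 hμ V
    ((hVQ.trans hQT).trans (hTE.trans inf_le_left))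
    ((hVQ.trans hQT).trans (hTE.trans inf_le_right)) nlam (by rw [hVeq]; exact nμ)
  have hZ : vertexZ p lam ≤ V := vertexZ_le_vertexVIter (by simp)
  rw [hVbot] at hZ
  exact sylowCenterClosure_ne_bot _ (dvd_card_stabilizer h.1 lam) (le_bot_iff.1 hZ)

end Cfsg.Agent.Lib.Helper17
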