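import Mathlib

set_option autoImplicit false

namespace Cfsg.Agent.Lib.Helper17.AutTwo

variable {X : Type*} [Group X]

theorem pow_apply_pow (β : MulAut X) (x : X) (j : ℕ) (h : β x = x ^ j) (r : ℕ) :
    (β ^ r) x = x ^ (j ^ r) := by
  induction r with
  | zero => simp
  | succ r ih =>
    rw [pow_succ', MulAut.mul_apply, ih, map_pow, h, ← pow_mul, pow_succ']

theorem pow_apply_mul (β : MulAut X) (c y : X) (hc : β c = c) (h : β y = c * y) (r : ℕ) :
    (β ^ r) y = c ^ r * y := by
  induction r with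
  | zero => simp
  | succ r ih =>
    rw [pow_succ', MulAut.mul_apply, ih, map_mul, map_pow, hc, h, ← mul_assoc, ← pow_succ]

theorem modEq_one_of_pow (k j m : ℕ) (hm : Odd m) (h : j ^ m ≡ 1 [MOD 2 ^ k]) :
    j ≡ 1 [MOD 2 ^ k] := by
  have h1 : ((j : ZMod (2 ^ k))) ^ m = 1 := by
    have := (ZMod.natCast_eq_natCast_iff _ _ _).mpr h
    simpa using this
  have hm0 : m ≠ 0 := by rintro rfl; simp at hm
  let u : (ZMod (2 ^ k))ˣ := Units.ofPowEqOne _ m h1 hm0
  have hu : u ^ m = 1 := Units.pow_ofPowEqOne h1 hm0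
  have hu2 : u ^ (2 ^ k).totient = 1 := ZMod.pow_totient u
  have hu3 : u = 1 := by
    have h3 : orderOf u ∣ m := orderOf_dvd_of_pow_eq_one hu
    have h4 : orderOf u ∣ (2 ^ k).totient := orderOf_dvd_of_pow_eq_one hu2
    have h5 : (2 ^ k).totient ∣ 2 ^ k := by
      rcases Nat.eq_zero_or_pos k with rfl | hk
      · simp
      · rw [Nat.totient_prime_pow Nat.prime_two hk]
        simp only [Nat.add_one_sub_one, mul_one]
        exact pow_dvd_pow 2 (Nat.sub_le k 1)
    have h6 : (m).Coprime (2 ^ k) := (Nat.Coprime.pow_right k hm.coprime_two_right)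
    have h7 : orderOf u ∣ 1 := by
      rw [← h6.gcd_eq_one]
      exact Nat.dvd_gcd h3 (h4.trans h5)
    exact orderOf_eq_one_iff.mp (Nat.dvd_one.mp h7)
  have h8 : (j : ZMod (2 ^ k)) = 1 := by
    have : (u : ZMod (2 ^ k)) = 1 := by rw [hu3]; rfl
    exact this
  apply (ZMod.natCast_eq_natCast_iff _ _ _).mp
  simpa using h8

/-- A finite group with a cyclic subgroup `⟨x⟩` of index two and 2-power order such that no element
outside has the order of `x` has a 2-group as automorphism group. -/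
theorem isPGroup_mulAut [Finite X] (x : X) (k : ℕ) (hx : orderOf x = 2 ^ k)
    (hidx : (Subgroup.zpowers x).index = 2)
    (hout : ∀ g : X, g ∉ Subgroup.zpowers x → orderOf g ≠ orderOf x) :
    IsPGroup 2 (MulAut X) := by
  intro α
  have hfin : Finite (MulAut X) := by
    exact Finite.of_injective (fun a : MulAut X => (a : X → X)) (fun a b h => DFunLike.coe_injective h)
  obtain ⟨a, m, hm, hord⟩ := Nat.exists_eq_two_pow_mul_odd (n := orderOf α) (orderOf_pos α).ne'
  refine ⟨a, ?_⟩
  set β := α ^ (2 ^ a) with hβ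
  have hβm : β ^ m = 1 := by
    rw [hβ, ← pow_mul, ← hord, pow_orderOf_eq_one]
  have hβx : β x ∈ Subgroup.zpowers x := by
    by_contra hcon
    apply hout _ hcon
    exact MulEquiv.orderOf_eq β x
  obtain ⟨j, hj⟩ : ∃ j : ℕ, x ^ j = β x := by
    have h0 : β x ∈ Submonoid.powers x := by
      rw [mem_powers_iff_mem_zpowers]; exact hβx
    exact h0
  have hj' : β x = x ^ j := hj.symm
  have h1 := pow_apply_pow β x j hj' m
  rw [hβm, MulAut.one_apply] at h1
  have h2 : j ^ m ≡ 1 [MOD 2 ^ k] := by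
    rw [← hx]
    apply pow_eq_pow_iff_modEq.mp
    rw [pow_one]; exact h1.symm
  have h3 := modEq_one_of_pow k j m hm h2
  have hfix : β x = x := by
    rw [hj']
    rw [← hx] at h3
    have := pow_eq_pow_iff_modEq.mpr h3
    rwa [pow_one] at this
  have hfixC : ∀ c ∈ Subgroup.zpowers x, β c = c := by
    rintro c ⟨i, rfl⟩
    simp only [map_zpow, hfix]
  ext y
  rw [MulAut.one_apply]
  by_cases hy : y ∈ Subgroup.zpowers x
  · exact hfixC y hy
  · have hβy : β y ∉ Subgroup.zpowers x := by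
      intro hcon
      have := hfixC _ hcon
      exact hy (by rw [← β.injective this]; exact hcon)
    have hyinv : y⁻¹ ∉ Subgroup.zpowers x := fun h => hy (by simpa using Subgroup.inv_mem _ h)
    have hc : β y * y⁻¹ ∈ Subgroup.zpowers x :=
      (Subgroup.mul_mem_iff_of_index_two hidx).mpr ⟨fun h => absurd h hβy, fun h => absurd h hyinv⟩
    have h4 := pow_apply_mul β (β y * y⁻¹) y (hfixC _ hc) (by group) m
    rw [hβm, MulAut.one_apply] at h4
    have h5 : (β y * y⁻¹) ^ m = 1 := by
      have : (β y * y⁻¹) ^ m * y = 1 * y := by rw [← h4, one_mul]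
      exact mul_right_cancel this
    have h6 : (β y * y⁻¹) ^ (2 ^ k) = 1 := by
      obtain ⟨i, hi⟩ := hc
      rw [← hi, ← zpow_natCast, ← zpow_mul, mul_comm, zpow_mul, zpow_natCast, ← hx,
        pow_orderOf_eq_one, one_zpow]
    have h7 : orderOf (β y * y⁻¹) ∣ 1 := by
      have h6' : (m).Coprime (2 ^ k) := (Nat.Coprime.pow_right k hm.coprime_two_right)
      rw [← h6'.gcd_eq_one]
      exact Nat.dvd_gcd (orderOf_dvd_of_pow_eq_one h5) (orderOf_dvd_of_pow_eq_one h6)
    have h8 : β y * y⁻¹ = 1 := orderOf_eq_one_iff.mp (Nat.dvd_one.mp h7)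
    exact mul_inv_eq_one.mp h8

end Cfsg.Agent.Lib.Helper17.AutTwo
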