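import Mathlib

/-! Counting commuting pairs coset by coset. -/

namespace Cfsg.Agent.Lib.Helper17

open Classical in
/-- commuting pairs lying in a prescribed pair of left cosets of `Y` -/
noncomputable def cpF {X : Type*} [Group X] [Fintype X] (Y : Subgroup X) (q1 q2 : X ⧸ Y) :
    Finset (X × X) :=
  Finset.univ.filter (fun p => (p.1 : X ⧸ Y) = q1 ∧ (p.2 : X ⧸ Y) = q2 ∧ p.1 * p.2 = p.2 * p.1)

theorem mem_cpF {X : Type*} [Group X] [Fintype X] (Y : Subgroup X) (q1 q2 : X ⧸ Y) (p : X × X) :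
    p ∈ cpF Y q1 q2 ↔ (p.1 : X ⧸ Y) = q1 ∧ (p.2 : X ⧸ Y) = q2 ∧ p.1 * p.2 = p.2 * p.1 := by
  classical
  simp [cpF]

theorem cpF_swap {X : Type*} [Group X] [Fintype X] (Y : Subgroup X) (q1 q2 : X ⧸ Y) :
    (cpF Y q1 q2).card = (cpF Y q2 q1).card := by
  classical
  apply Finset.card_bij (fun p _ => Prod.swap p)
  · intro p hp
    rw [mem_cpF] at hp ⊢
    exact ⟨hp.2.1, hp.1, hp.2.2.symm⟩
  · intro p _ p' _ h
    exact Prod.swap_injective h
  · intro p hp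
    rw [mem_cpF] at hp
    exact ⟨Prod.swap p, by rw [mem_cpF]; exact ⟨hp.2.1, hp.1, hp.2.2.symm⟩, by simp⟩

open Classical in
/-- a chosen element of the coset `q` commuting with `x`, if any -/
noncomputable def cpChoice {X : Type*} [Group X] (Y : Subgroup X) (q : X ⧸ Y) (x : X) : X :=
  if h : ∃ y : X, (y : X ⧸ Y) = q ∧ x * y = y * x then h.choose else 1

theorem cpF_step_mem {X : Type*} [Group X] [Fintype X] (Y : Subgroup X) (q1 q2 : X ⧸ Y)
    (p : X × X) (hp : p ∈ cpF Y q1 q2) :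
    (p.1, (cpChoice Y q2 p.1)⁻¹ * p.2) ∈ cpF Y q1 ((1 : X) : X ⧸ Y) := by
  rw [mem_cpF] at hp ⊢
  have hex : ∃ y : X, (y : X ⧸ Y) = q2 ∧ p.1 * y = y * p.1 := ⟨p.2, hp.2.1, hp.2.2⟩
  have hc : cpChoice Y q2 p.1 = hex.choose := by
    unfold cpChoice
    rw [dif_pos hex]
  obtain ⟨h1, h2⟩ := hex.choose_spec
  rw [← hc] at h1 h2
  obtain ⟨y0, hy0⟩ : ∃ y0, y0 = cpChoice Y q2 p.1 := ⟨_, rfl⟩
  rw [← hy0] at h1 h2 ⊢
  refine ⟨hp.1, ?_, ?_⟩
  · show ((y0⁻¹ * p.2 : X) : X ⧸ Y) = ((1 : X) : X ⧸ Y)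
    rw [eq_comm, QuotientGroup.eq]
    have : (y0 : X ⧸ Y) = (p.2 : X ⧸ Y) := by rw [h1, hp.2.1]
    rw [QuotientGroup.eq] at this
    simpa using this
  · show p.1 * (y0⁻¹ * p.2) = y0⁻¹ * p.2 * p.1
    have h3 : p.1 * y0⁻¹ = y0⁻¹ * p.1 := by
      have : y0⁻¹ * (p.1 * y0) * y0⁻¹ = y0⁻¹ * (y0 * p.1) * y0⁻¹ := by rw [h2]
      simpa [mul_assoc] using this.symm
    calc p.1 * (y0⁻¹ * p.2) = (p.1 * y0⁻¹) * p.2 := by group
      _ = y0⁻¹ * (p.1 * p.2) := by rw [h3]; group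
      _ = y0⁻¹ * p.2 * p.1 := by rw [hp.2.2]; group

theorem cpF_step {X : Type*} [Group X] [Fintype X] (Y : Subgroup X) (q1 q2 : X ⧸ Y) :
    (cpF Y q1 q2).card ≤ (cpF Y q1 ((1 : X) : X ⧸ Y)).card := by
  classical
  apply Finset.card_le_card_of_injOn (fun p => (p.1, (cpChoice Y q2 p.1)⁻¹ * p.2))
  · intro p hp
    exact cpF_step_mem Y q1 q2 p hp
  · intro p _ p' _ h
    simp only [Prod.mk.injEq] at h
    obtain ⟨h1, h2⟩ := h
    rw [h1] at h2
    exact Prod.ext h1 (mul_left_cancel h2)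

theorem cpF_le {X : Type*} [Group X] [Fintype X] (Y : Subgroup X) (q1 q2 : X ⧸ Y) :
    (cpF Y q1 q2).card ≤ (cpF Y ((1 : X) : X ⧸ Y) ((1 : X) : X ⧸ Y)).card :=
  calc (cpF Y q1 q2).card ≤ (cpF Y q1 ((1 : X) : X ⧸ Y)).card := cpF_step Y q1 q2
    _ = (cpF Y ((1 : X) : X ⧸ Y) q1).card := cpF_swap Y _ _
    _ ≤ _ := cpF_step Y _ q1

/-- strictness: a coset containing no element commuting with some `y ∈ Y` -/
theorem cpF_lt {X : Type*} [Group X] [Fintype X] (Y : Subgroup X) (q : X ⧸ Y) (y : X) (hy : y ∈ Y)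
    (hno : ∀ x : X, (x : X ⧸ Y) = q → y * x ≠ x * y) :
    (cpF Y ((1 : X) : X ⧸ Y) q).card < (cpF Y ((1 : X) : X ⧸ Y) ((1 : X) : X ⧸ Y)).card := by
  classical
  have hinj : Set.InjOn (fun p : X × X => (p.1, (cpChoice Y q p.1)⁻¹ * p.2))
      (cpF Y ((1 : X) : X ⧸ Y) q : Set (X × X)) := by
    intro p _ p' _ h
    simp only [Prod.mk.injEq] at h
    obtain ⟨h1, h2⟩ := h
    rw [h1] at h2
    exact Prod.ext h1 (mul_left_cancel h2)
  rw [← Finset.card_image_of_injOn hinj]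
  apply Finset.card_lt_card
  rw [Finset.ssubset_iff_of_subset]
  · refine ⟨(y, 1), ?_, ?_⟩
    · rw [mem_cpF]
      refine ⟨?_, rfl, by simp⟩
      rw [eq_comm, QuotientGroup.eq]
      simpa using hy
    · intro hmem
      rw [Finset.mem_image] at hmem
      obtain ⟨p, hp, hpe⟩ := hmem
      rw [mem_cpF] at hp
      simp only [Prod.mk.injEq] at hpe
      exact hno p.2 hp.2.1 (by rw [← hpe.1]; exact hp.2.2)
  · intro p hp
    rw [Finset.mem_image] at hp
    obtain ⟨p', hp', rfl⟩ := hp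
    exact cpF_step_mem Y _ q p' hp'

/-- the number of commuting pairs inside `Y` -/
theorem cpF_one_one {X : Type*} [Group X] [Fintype X] (Y : Subgroup X) :
    (cpF Y ((1 : X) : X ⧸ Y) ((1 : X) : X ⧸ Y)).card = Nat.card (ConjClasses Y) * Nat.card Y := by
  classical
  rw [← card_comm_eq_card_conjClasses_mul_card, Nat.card_eq_fintype_card, ← Finset.card_univ]
  symm
  apply Finset.card_bij (fun (p : { p : Y × Y // Commute p.1 p.2 }) _ => ((p.1.1 : X), (p.1.2 : X)))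
  · intro p _
    rw [mem_cpF]
    refine ⟨?_, ?_, ?_⟩
    · rw [eq_comm, QuotientGroup.eq]; simp
    · rw [eq_comm, QuotientGroup.eq]; simp
    · have := p.2
      have h2 : p.1.1 * p.1.2 = p.1.2 * p.1.1 := this
      exact congrArg Subtype.val h2
  · intro p _ p' _ h
    simp only [Prod.mk.injEq] at h
    apply Subtype.ext
    apply Prod.ext
    · exact Subtype.ext h.1
    · exact Subtype.ext h.2
  · intro p hp
    rw [mem_cpF] at hp
    have h1 : p.1 ∈ Y := by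
      have := hp.1
      rw [eq_comm, QuotientGroup.eq] at this
      simpa using this
    have h2 : p.2 ∈ Y := by
      have := hp.2.1
      rw [eq_comm, QuotientGroup.eq] at this
      simpa using this
    exact ⟨⟨(⟨p.1, h1⟩, ⟨p.2, h2⟩), Subtype.ext hp.2.2⟩, Finset.mem_univ _, rfl⟩

/-- all commuting pairs, sorted by cosets -/
theorem card_comm_eq_sum_cpF {X : Type*} [Group X] [Fintype X] (Y : Subgroup X)
    [Fintype (X ⧸ Y)] :
    Nat.card (ConjClasses X) * Nat.card X =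
      ∑ q : (X ⧸ Y) × (X ⧸ Y), (cpF Y q.1 q.2).card := by
  classical
  rw [← card_comm_eq_card_conjClasses_mul_card, Nat.card_eq_fintype_card, Fintype.card_subtype]
  rw [Finset.card_eq_sum_card_fiberwise (f := fun p : X × X => ((p.1 : X ⧸ Y), (p.2 : X ⧸ Y)))
    (t := Finset.univ) (fun _ _ => Finset.mem_univ _)]
  apply Finset.sum_congr rfl
  intro q _
  congr 1
  ext p
  rw [mem_cpF]
  simp only [Finset.mem_filter, Finset.mem_univ, true_and, Prod.ext_iff]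
  constructor
  · rintro ⟨h1, h2, h3⟩
    exact ⟨h2, h3, h1⟩
  · rintro ⟨h1, h2, h3⟩
    exact ⟨h3, h1, h2⟩

end Cfsg.Agent.Lib.Helper17
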