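import Cfsg.Agent.S0144
import Cfsg.Agent.S0058
import Cfsg.Agent.Lib.Helper1.Cores
import Cfsg.Agent.Lib.Helper4.Basic
import Cfsg.Agent.Lib.Helper17.Basic

/-!
# Groups of exponent dividing 6: basic facts
-/

set_option autoImplicit false

namespace Cfsg.Agent.Lib.Helper17

universe u

theorem exp6_card {G : Type u} [Group G] [Finite G] (h : ∀ x : G, x ^ 6 = 1) :
    ∃ a b : ℕ, Nat.card G = 2 ^ a * 3 ^ b := by
  have hn : Nat.card G ≠ 0 := Nat.card_pos.ne'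
  have hp : ∀ p : ℕ, p.Prime → p ∣ Nat.card G → p = 2 ∨ p = 3 := by
    intro p hp hd
    haveI : Fact p.Prime := ⟨hp⟩
    obtain ⟨x, hx⟩ := exists_prime_orderOf_dvd_card' p hd
    have h1 : p ∣ 6 := hx ▸ orderOf_dvd_of_pow_eq_one (h x)
    have h2 : p ∣ 2 * 3 := by simpa using h1
    rcases (Nat.Prime.dvd_mul hp).mp h2 with h3 | h3
    · left; exact (Nat.prime_dvd_prime_iff_eq hp Nat.prime_two).mp h3
    · right; exact (Nat.prime_dvd_prime_iff_eq hp Nat.prime_three).mp h3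
  have h1 := Nat.ordProj_mul_ordCompl_eq_self (Nat.card G) 2
  have h2 : ordCompl[2] (Nat.card G) ≠ 0 := by
    intro h0; rw [h0, mul_zero] at h1; exact hn h1.symm
  have h3 := Nat.eq_prime_pow_of_unique_prime_dvd (p := 3) h2 (by
    intro d hd hdd
    have h4 : d ∣ Nat.card G := hdd.trans (Nat.ordCompl_dvd _ _)
    rcases hp d hd h4 with h5 | h5
    · exfalso
      rw [h5] at hdd
      exact Nat.not_dvd_ordCompl Nat.prime_two hn hdd
    · exact h5)
  exact ⟨_, _, by rw [← h3]; exact h1.symm⟩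

theorem exp6_solvable {G : Type u} [Group G] [Finite G] (h : ∀ x : G, x ^ 6 = 1) :
    Group.IsSolvable G := by
  obtain ⟨a, b, hab⟩ := exp6_card h
  exact Cfsg.Agent.S0144.result 2 3 a b Nat.prime_two Nat.prime_three hab

theorem exp6_three {G : Type u} [Group G] {y : G} (h : y ^ 6 = 1) {k : ℕ} (hk : y ^ (3 ^ k) = 1) :
    y ^ 3 = 1 := by
  have h1 : orderOf y ∣ 3 ^ k := orderOf_dvd_of_pow_eq_one hk
  have h2 : orderOf y ∣ 6 := orderOf_dvd_of_pow_eq_one h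
  have h3 : (orderOf y).Coprime 2 :=
    Nat.Coprime.of_dvd_left h1 (Nat.Coprime.pow_left k (by decide))
  have h4 : orderOf y ∣ 3 := by
    have : orderOf y ∣ 2 * 3 := by simpa using h2
    exact h3.dvd_of_dvd_mul_left this
  exact orderOf_dvd_iff_pow_eq_one.mp h4

theorem exp6_two {G : Type u} [Group G] {y : G} (h : y ^ 6 = 1) {k : ℕ} (hk : y ^ (2 ^ k) = 1) :
    y ^ 2 = 1 := by
  have h1 : orderOf y ∣ 2 ^ k := orderOf_dvd_of_pow_eq_one hk
  have h2 : orderOf y ∣ 6 := orderOf_dvd_of_pow_eq_one h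
  have h3 : (orderOf y).Coprime 3 :=
    Nat.Coprime.of_dvd_left h1 (Nat.Coprime.pow_left k (by decide))
  have h4 : orderOf y ∣ 2 := by
    have : orderOf y ∣ 3 * 2 := by simpa using h2
    exact h3.dvd_of_dvd_mul_left this
  exact orderOf_dvd_iff_pow_eq_one.mp h4

theorem eq_one_of_sq_cube {G : Type u} [Group G] {y : G} (h2 : y ^ 2 = 1) (h3 : y ^ 3 = 1) : y = 1 := by
  have : y ^ 3 = y ^ 2 * y := pow_succ y 2
  rw [h3, h2, one_mul] at this
  exact this.symm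

theorem comm_of_sq {G : Type u} [Group G] {s t : G} (hs : s ^ 2 = 1) (ht : t ^ 2 = 1)
    (hst : (s * t) ^ 2 = 1) : s * t = t * s := by
  have h1 : s⁻¹ = s := by
    rw [inv_eq_iff_mul_eq_one, ← pow_two]; exact hs
  have h2 : t⁻¹ = t := by
    rw [inv_eq_iff_mul_eq_one, ← pow_two]; exact ht
  have h3 : (s * t)⁻¹ = s * t := by
    rw [inv_eq_iff_mul_eq_one, ← pow_two]; exact hst
  rw [← h3, mul_inv_rev, h1, h2]

/-- the key computation: an `A₄` acting on a group of exponent 3 with trivial norms -/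
theorem a4_key {G : Type u} [Group G] (x u v w y : G)
    (hxv : x * v * x⁻¹ = w) (hxw : x * w * x⁻¹ = u)
    (hv : v * y * v⁻¹ = y) (hu : u * y * u⁻¹ = y⁻¹) (hw : w * y * w⁻¹ = y⁻¹)
    (hy3 : y ^ 3 = 1) (hN : y * (x * y * x⁻¹) * (x * (x * y * x⁻¹) * x⁻¹) = 1) : y = 1 := by
  obtain ⟨y₁, hy₁⟩ : ∃ y₁, y₁ = x * y * x⁻¹ := ⟨_, rfl⟩
  obtain ⟨y₂, hy₂⟩ : ∃ y₂, y₂ = x * y₁ * x⁻¹ := ⟨_, rfl⟩
  rw [← hy₁, ← hy₂] at hN
  have hu1 : u * y₁ * u⁻¹ = y₁⁻¹ := by
    have : u * y₁ * u⁻¹ = x * (w * y * w⁻¹) * x⁻¹ := by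
      rw [← hxw, hy₁]; group
    rw [this, hw, hy₁]; group
  have hw1 : w * y₁ * w⁻¹ = y₁ := by
    have : w * y₁ * w⁻¹ = x * (v * y * v⁻¹) * x⁻¹ := by
      rw [← hxv, hy₁]; group
    rw [this, hv, hy₁]
  have hu2 : u * y₂ * u⁻¹ = y₂ := by
    have : u * y₂ * u⁻¹ = x * (w * y₁ * w⁻¹) * x⁻¹ := by
      rw [← hxw, hy₂]; group
    rw [this, hw1, hy₂]
  have hE2 : y⁻¹ * y₁⁻¹ * y₂ = 1 := by
    have h1 : u * (y * y₁ * y₂) * u⁻¹ = (u * y * u⁻¹) * (u * y₁ * u⁻¹) * (u * y₂ * u⁻¹) := by group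
    rw [hN, hu, hu1, hu2] at h1
    rw [← h1]; group
  have h2a : y₂ = y₁ * y := by
    have : y₂ = (y₁ * y) * (y⁻¹ * y₁⁻¹ * y₂) := by group
    rw [this, hE2, mul_one]
  have h2b : y₂ = y₁⁻¹ * y⁻¹ := by
    have : y₂ = (y₁⁻¹ * y⁻¹) * (y * y₁ * y₂) := by group
    rw [this, hN, mul_one]
  have hy13 : y₁ ^ 3 = 1 := by
    rw [hy₁, conj_pow, hy3]; group
  have h3 : y₁ * y₁ = y⁻¹ * y⁻¹ := by
    have h4 : y₁ * y = y₁⁻¹ * y⁻¹ := h2a.symm.trans h2b
    have : y₁ * y₁ = y₁ * (y₁ * y) * y⁻¹ := by group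
    rw [this, h4]; group
  have h5 : y₁⁻¹ = y := by
    have e1 : y₁⁻¹ = y₁ * y₁ := by
      have : y₁ ^ 3 = y₁ * y₁ * y₁ := by rw [pow_succ, pow_two]
      rw [hy13] at this
      exact inv_eq_of_mul_eq_one_left this.symm
    have e2 : y⁻¹ * y⁻¹ = y := by
      have : y ^ 3 = y * y * y := by rw [pow_succ, pow_two]
      rw [hy3] at this
      have h6 : y⁻¹ * y⁻¹ = y⁻¹ * y⁻¹ * (y * y * y) := by rw [← this, mul_one]
      rw [h6]; group
    rw [e1, h3, e2]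
  have h6 : w * y * w⁻¹ = y := by
    have h7 : w * y₁⁻¹ * w⁻¹ = y₁⁻¹ := by
      have : w * y₁⁻¹ * w⁻¹ = (w * y₁ * w⁻¹)⁻¹ := by group
      rw [this, hw1]
    rwa [h5] at h7
  have h7 : y = y⁻¹ := h6.symm.trans hw
  have h8 : y ^ 2 = 1 := by
    rw [pow_two]; nth_rewrite 1 [h7]; exact inv_mul_cancel y
  exact eq_one_of_sq_cube h8 hy3

theorem four_closure {G : Type u} [Group G] (u v w : G) (hu : u * u = 1) (hv : v * v = 1)
    (huv : u * v = w) (hvu : v * u = w) :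
    ∀ a ∈ Subgroup.closure ({u, v} : Set G), a = 1 ∨ a = u ∨ a = v ∨ a = w := by
  have huw : u * w = v := by rw [← huv, ← mul_assoc, hu, one_mul]
  have hwu : w * u = v := by rw [← hvu, mul_assoc, hu, mul_one]
  have hvw : v * w = u := by rw [← hvu, ← mul_assoc, hv, one_mul]
  have hwv : w * v = u := by rw [← huv, mul_assoc, hv, mul_one]
  have hww : w * w = 1 := by
    nth_rewrite 1 [← huv]; rw [mul_assoc, hvw, hu]
  intro a ha
  induction ha using Subgroup.closure_induction with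
  | mem x hx =>
    rcases hx with rfl | hx
    · right; left; rfl
    · rw [Set.mem_singleton_iff] at hx
      right; right; left; exact hx
  | one => left; rfl
  | mul x y _ _ hx hy =>
    rcases hx with rfl | rfl | rfl | rfl <;> rcases hy with rfl | rfl | rfl | rfl <;>
      simp [hu, hv, huv, hvu, huw, hwu, hvw, hwv, hww]
  | inv x _ hx =>
    rcases hx with rfl | rfl | rfl | rfl
    · left; simp
    · right; left; exact inv_eq_of_mul_eq_one_left hu
    · right; right; left; exact inv_eq_of_mul_eq_one_left hv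
    · right; right; right; exact inv_eq_of_mul_eq_one_left hww

end Cfsg.Agent.Lib.Helper17
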