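import Cfsg.Agent.Lib.Helper17.ExpSix1
import Cfsg.Agent.Lib.Helper21.TwoClosed

/-!
# Groups of exponent dividing 6: the Sylow 3-subgroup is normal when `O_2 = 1`
-/

set_option autoImplicit false

namespace Cfsg.Agent.Lib.Helper17

universe u

open scoped Pointwise

/-- The configuration that cannot occur. -/
theorem exp6_config {G : Type u} [Group G] [Finite G] (h6 : ∀ x : G, x ^ 6 = 1)
    (F : Subgroup G) [hFn : F.Normal] (hF3 : ∀ y ∈ F, y ^ 3 = 1)
    (hCF : Subgroup.centralizer (F : Set G) ≤ F)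
    (T : Subgroup G) (hT2 : ∀ t ∈ T, t ^ 2 = 1) (x : G) (hx3 : x ^ 3 = 1)
    (hxT : ∀ t ∈ T, x * t * x⁻¹ ∈ T) (a : G) (ha : a ∈ T) (hxa : x * a * x⁻¹ ≠ a) : False := by
  have hTc : ∀ s ∈ T, ∀ t ∈ T, s * t = t * s := fun s hs t ht =>
    comm_of_sq (hT2 s hs) (hT2 t ht) (hT2 _ (T.mul_mem hs ht))
  have hsq : ∀ t ∈ T, t * t = 1 := fun t ht => by rw [← pow_two]; exact hT2 t ht
  obtain ⟨b, hb⟩ : ∃ b, b = x * a * x⁻¹ := ⟨_, rfl⟩
  obtain ⟨c, hc⟩ : ∃ c, c = x * b * x⁻¹ := ⟨_, rfl⟩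
  have hbT : b ∈ T := hb ▸ hxT a ha
  have hcT : c ∈ T := hc ▸ hxT b hbT
  have hxc : x * c * x⁻¹ = a := by
    have hx3' : x * x * x = 1 := by rw [← hx3, pow_succ, pow_two]
    have : x * c * x⁻¹ = (x * x * x) * a * (x * x * x)⁻¹ := by rw [hc, hb]; group
    rw [this, hx3']; group
  obtain ⟨u, hu⟩ : ∃ u, u = a * b := ⟨_, rfl⟩
  obtain ⟨v, hv⟩ : ∃ v, v = b * c := ⟨_, rfl⟩
  obtain ⟨w, hw⟩ : ∃ w, w = c * a := ⟨_, rfl⟩
  have huT : u ∈ T := hu ▸ T.mul_mem ha hbT
  have hvT : v ∈ T := hv ▸ T.mul_mem hbT hcT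
  have hwT : w ∈ T := hw ▸ T.mul_mem hcT ha
  have hxu : x * u * x⁻¹ = v := by
    have : x * u * x⁻¹ = (x * a * x⁻¹) * (x * b * x⁻¹) := by rw [hu]; group
    rw [this, ← hb, ← hc, hv]
  have hxv : x * v * x⁻¹ = w := by
    have : x * v * x⁻¹ = (x * b * x⁻¹) * (x * c * x⁻¹) := by rw [hv]; group
    rw [this, ← hc, hxc, hw]
  have hxw : x * w * x⁻¹ = u := by
    have : x * w * x⁻¹ = (x * c * x⁻¹) * (x * a * x⁻¹) := by rw [hw]; group
    rw [this, hxc, ← hb, hu]
  have huv : u * v = w := by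
    rw [hu, hv, hw, mul_assoc, ← mul_assoc b b c, hsq b hbT, one_mul, hTc a ha c hcT]
  have hvu : v * u = w := by rw [hTc v hvT u huT, huv]
  have hu1 : u ≠ 1 := by
    intro h1
    apply hxa
    rw [← hb]
    have h2 : a * b = 1 := hu ▸ h1
    have h3 : b = a⁻¹ := (inv_eq_of_mul_eq_one_right h2).symm
    rw [h3]
    exact inv_eq_of_mul_eq_one_left (hsq a ha)
  have hv1 : v ≠ 1 := by
    intro h1
    apply hu1
    rw [h1] at hxu
    have : u = x⁻¹ * (x * u * x⁻¹) * x := by group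
    rw [this, hxu]; group
  have huvne : u ≠ v := by
    intro h1
    have h2 : w = 1 := by rw [← huv, ← h1]; exact hsq u huT
    apply hv1
    rw [h2] at hxv
    have : v = x⁻¹ * (x * v * x⁻¹) * x := by group
    rw [this, hxv]; group
  -- norms are trivial
  have hN : ∀ y ∈ F, y * (x * y * x⁻¹) * (x * (x * y * x⁻¹) * x⁻¹) = 1 := by
    intro y hy
    have hx3' : x * x * x = 1 := by rw [← hx3, pow_succ, pow_two]
    have h1 : (y * x) ^ 3 = y * (x * y * x⁻¹) * (x * (x * y * x⁻¹) * x⁻¹) * (x * x * x) := by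
      rw [pow_succ, pow_two]; group
    rw [hx3', mul_one] at h1
    have h2 : y * (x * y * x⁻¹) * (x * (x * y * x⁻¹) * x⁻¹) ∈ F :=
      F.mul_mem (F.mul_mem hy (hFn.conj_mem _ hy x)) (hFn.conj_mem _ (hFn.conj_mem _ hy x) x)
    apply eq_one_of_sq_cube _ (hF3 _ h2)
    rw [← h1, ← pow_mul]
    exact h6 _
  -- the four group
  obtain ⟨U, hU⟩ : ∃ U, U = Subgroup.closure ({u, v} : Set G) := ⟨_, rfl⟩
  have hUel := four_closure u v w (hsq u huT) (hsq v hvT) huv hvu
  rw [← hU] at hUel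
  have huU : u ∈ U := hU ▸ Subgroup.subset_closure (by simp)
  have hvU : v ∈ U := hU ▸ Subgroup.subset_closure (by simp)
  have hUT : U ≤ T := by
    rw [hU, Subgroup.closure_le]
    rintro z (rfl | hz)
    · exact huT
    · rw [Set.mem_singleton_iff] at hz; rw [hz]; exact hvT
  haveI hUc : IsMulCommutative U := by
    rw [Cfsg.Agent.Lib.Helper4.isMulCommutative_iff]
    exact fun s hs t ht => hTc s (hUT hs) t (hUT ht)
  have hUnc : ¬ IsCyclic U := by
    intro hcyc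
    obtain ⟨g, hg⟩ := hcyc.exists_generator
    have hg2 : g ^ 2 = 1 := Subtype.ext (hT2 _ (hUT g.2))
    have hall : ∀ z : U, z = 1 ∨ z = g := by
      intro z
      obtain ⟨k, hk⟩ := hg z
      change g ^ k = z at hk
      rcases Int.even_or_odd' k with ⟨m, hm | hm⟩
      · left
        rw [← hk, hm, zpow_mul, zpow_ofNat, hg2, one_zpow]
      · right
        rw [← hk, hm, zpow_add, zpow_mul, zpow_ofNat, hg2, one_zpow, one_mul, zpow_one]
    rcases hall ⟨u, huU⟩ with h1 | h1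
    · exact hu1 (congrArg Subtype.val h1)
    · rcases hall ⟨v, hvU⟩ with h2 | h2
      · exact hv1 (congrArg Subtype.val h2)
      · exact huvne (congrArg Subtype.val (h1.trans h2.symm))
  have hUF : U ≤ Subgroup.normalizer (F : Set G) := by
    rw [Subgroup.normalizer_eq_top_iff.mpr hFn]; exact le_top
  have hcop : (Nat.card U).Coprime (Nat.card F) := by
    haveI : Fact (Nat.Prime 2) := ⟨Nat.prime_two⟩
    haveI : Fact (Nat.Prime 3) := ⟨Nat.prime_three⟩
    have h1 : IsPGroup 2 U := fun z => ⟨1, by rw [pow_one]; exact Subtype.ext (hT2 _ (hUT z.2))⟩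
    have h2 : IsPGroup 3 F := fun z => ⟨1, by rw [pow_one]; exact Subtype.ext (hF3 _ z.2)⟩
    obtain ⟨i, hi⟩ := IsPGroup.iff_card.mp h1
    obtain ⟨j, hj⟩ := IsPGroup.iff_card.mp h2
    rw [hi, hj]
    exact Nat.Coprime.pow _ _ (by decide)
  have hgen := Cfsg.Agent.S0058.result U F hUnc hUF hcop
  -- u acts nontrivially on the centralizer of v or w
  have hex : ∃ s, (s = v ∨ s = w) ∧ ∃ z ∈ F, s * z * s⁻¹ = z ∧ u * z * u⁻¹ ≠ z := by
    by_contra hno
    push Not at hno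
    have h1 : F ≤ Subgroup.centralizer {u} := by
      rw [← hgen]
      apply iSup₂_le
      rintro s ⟨hsU, hs1⟩ z hz
      obtain ⟨hzF, hzs⟩ := Subgroup.mem_inf.mp hz
      rw [Subgroup.mem_centralizer_singleton_iff] at hzs ⊢
      rcases hUel s hsU with h | h | h | h
      · exact absurd h hs1
      · rw [← h]; exact hzs
      · have := hno s (Or.inl h) z hzF (by rw [← hzs]; group)
        exact (mul_inv_eq_iff_eq_mul.mp this).symm
      · have := hno s (Or.inr h) z hzF (by rw [← hzs]; group)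
        exact (mul_inv_eq_iff_eq_mul.mp this).symm
    have h2 : u ∈ Subgroup.centralizer (F : Set G) := by
      rw [Subgroup.mem_centralizer_iff]
      intro z hz
      have := h1 hz
      rw [Subgroup.mem_centralizer_singleton_iff] at this
      exact this
    exact hu1 (eq_one_of_sq_cube (hT2 u huT) (hF3 u (hCF h2)))
  obtain ⟨s, hs, z, hzF, hsz, huz⟩ := hex
  obtain ⟨y, hy⟩ : ∃ y, y = z⁻¹ * (u * z * u⁻¹) := ⟨_, rfl⟩
  have hyF : y ∈ F := hy ▸ F.mul_mem (F.inv_mem hzF) (hFn.conj_mem _ hzF u)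
  have hy1 : y ≠ 1 := by
    intro h1
    apply huz
    rw [hy] at h1
    exact (inv_mul_eq_one.mp h1).symm
  have huinv : u⁻¹ = u := inv_eq_of_mul_eq_one_left (hsq u huT)
  have huy : u * y * u⁻¹ = y⁻¹ := by
    have e1 : u * y * u⁻¹ = (u * z * u⁻¹)⁻¹ * ((u * u) * z * (u * u)⁻¹) := by rw [hy]; group
    rw [e1, hsq u huT, hy]; group
  have hsT : s ∈ T := by rcases hs with h | h <;> rw [h] <;> assumption
  have hsy : s * y * s⁻¹ = y := by
    have e1 : s * y * s⁻¹ = (s * z * s⁻¹)⁻¹ * ((s * u) * z * (s * u)⁻¹) := by rw [hy]; group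
    rw [e1, hTc s hsT u huT]
    have e2 : u * s * z * (u * s)⁻¹ = u * (s * z * s⁻¹) * u⁻¹ := by group
    rw [e2, hsz, hy]
  apply hy1
  rcases hs with h | h
  · -- fixed by v, inverted by u and w
    rw [h] at hsy
    have hwy : w * y * w⁻¹ = y⁻¹ := by
      have : w * y * w⁻¹ = u * (v * y * v⁻¹) * u⁻¹ := by rw [← huv]; group
      rw [this, hsy, huy]
    exact a4_key x u v w y hxv hxw hsy huy hwy (hF3 y hyF) (hN y hyF)
  · -- fixed by w, inverted by u and v
    rw [h] at hsy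
    have hvy : v * y * v⁻¹ = y⁻¹ := by
      have hv' : v = u * w := by rw [← huv, ← mul_assoc, hsq u huT, one_mul]
      have : v * y * v⁻¹ = u * (w * y * w⁻¹) * u⁻¹ := by rw [hv']; group
      rw [this, hsy, huy]
    exact a4_key x v w u y hxw hxu hsy hvy huy (hF3 y hyF) (hN y hyF)

end Cfsg.Agent.Lib.Helper17
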