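import Cfsg.Agent.Lib.Helper17.ExpSix2
import Cfsg.Agent.Lib.Helper29.PLength2

/-!
# Groups of exponent dividing 6 have `2`-length and `3`-length at most one
-/

set_option autoImplicit false

namespace Cfsg.Agent.Lib.Helper17

universe u

open scoped Pointwise

theorem exp6_core3' {G : Type u} [Group G] [Finite G] (h6 : ∀ x : G, x ^ 6 = 1)
    (F : Subgroup G) [hFn : F.Normal] (hF3 : ∀ y ∈ F, y ^ 3 = 1)
    (hCF : Subgroup.centralizer (F : Set G) ≤ F) (hO3 : Cfsg.pCore 3 (G ⧸ F) = ⊥) :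
    (Nat.card (G ⧸ F)).Coprime 3 := by
  haveI : Fact (Nat.Prime 2) := ⟨Nat.prime_two⟩
  haveI : Fact (Nat.Prime 3) := ⟨Nat.prime_three⟩
  by_contra hcon
  have h3 : 3 ∣ Nat.card (G ⧸ F) := by
    by_contra h
    exact hcon ((Nat.Prime.coprime_iff_not_dvd Nat.prime_three).mpr h).symm
  have h6' : ∀ x : G ⧸ F, x ^ 6 = 1 := by
    intro x
    obtain ⟨g, rfl⟩ := QuotientGroup.mk'_surjective F x
    rw [← map_pow, h6, map_one]
  haveI := exp6_solvable h6'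
  have hO2 : Cfsg.pPrimeCore 2 (G ⧸ F) = ⊥ := by
    have hsp := Cfsg.Agent.Lib.Helper1.pPrimeCore_spec (G := G ⧸ F) 2
    have hp : IsPGroup 3 (Cfsg.pPrimeCore 2 (G ⧸ F)) := by
      intro z
      refine ⟨1, ?_⟩
      rw [pow_one]
      have h1 : orderOf z ∣ Nat.card (Cfsg.pPrimeCore 2 (G ⧸ F)) := orderOf_dvd_natCard z
      have h2 : (orderOf z).Coprime 2 := Nat.Coprime.of_dvd_left h1 hsp.2
      have h4 : orderOf z ∣ 2 * 3 := orderOf_dvd_of_pow_eq_one (Subtype.ext (h6' z))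
      exact orderOf_dvd_iff_pow_eq_one.mp (h2.dvd_of_dvd_mul_left h4)
    have := Cfsg.Agent.Lib.Helper1.le_pCore hsp.1 hp
    rw [hO3] at this
    exact le_bot_iff.mp this
  have hCT := Cfsg.Agent.Lib.Helper1.centralizer_pCore_le 2 hO2
  obtain ⟨Tb, hTb⟩ : ∃ Tb, Tb = Cfsg.pCore 2 (G ⧸ F) := ⟨_, rfl⟩
  rw [← hTb] at hCT
  haveI hTbn : Tb.Normal := hTb ▸ inferInstance
  have hTb2 : ∀ t ∈ Tb, t ^ 2 = 1 := by
    intro t ht
    rw [hTb] at ht
    obtain ⟨k, hk⟩ := Cfsg.Agent.Lib.Helper1.pCore_isPGroup (G := G ⧸ F) 2 ⟨t, ht⟩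
    exact exp6_two (h6' t) (congrArg Subtype.val hk)
  obtain ⟨xb, hxb⟩ := exists_prime_orderOf_dvd_card' 3 h3
  have hxb3 : xb ^ 3 = 1 := by rw [← hxb]; exact pow_orderOf_eq_one xb
  have hxbT : xb ∉ Tb := by
    intro h
    have := eq_one_of_sq_cube (hTb2 xb h) hxb3
    rw [this, orderOf_one] at hxb
    exact absurd hxb (by decide)
  obtain ⟨K, hK⟩ : ∃ K, K = Tb.comap (QuotientGroup.mk' F) := ⟨_, rfl⟩
  haveI hKn : K.Normal := hK ▸ hTbn.comap _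
  have hKmem : ∀ g, g ∈ K ↔ QuotientGroup.mk' F g ∈ Tb := by
    intro g; rw [hK, Subgroup.mem_comap]
  obtain ⟨T⟩ : Nonempty (Sylow 2 K) := inferInstance
  obtain ⟨T', hT'⟩ : ∃ T', T' = (T : Subgroup K).map K.subtype := ⟨_, rfl⟩
  have hFr := Sylow.normalizer_sup_eq_top T
  rw [← hT'] at hFr
  obtain ⟨x₀, hx₀⟩ := QuotientGroup.mk'_surjective F xb
  have hx₀mem : x₀ ∈ Subgroup.normalizer (T' : Set G) ⊔ K := hFr ▸ Subgroup.mem_top _
  obtain ⟨n, hn, k, hk, hnk⟩ := Subgroup.mem_sup_of_normal_right.mp hx₀mem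
  obtain ⟨x, hx⟩ : ∃ x, x = n ^ 4 := ⟨_, rfl⟩
  have hx3 : x ^ 3 = 1 := by
    rw [hx, ← pow_mul, show 4 * 3 = 6 * 2 from rfl, pow_mul, h6, one_pow]
  have hxN : x ∈ Subgroup.normalizer (T' : Set G) := hx ▸ Subgroup.pow_mem _ hn 4
  have hxT : ∀ t ∈ T', x * t * x⁻¹ ∈ T' := fun t ht => (Subgroup.mem_normalizer_iff.mp hxN t).mp ht
  have hT2 : ∀ t ∈ T', t ^ 2 = 1 := by
    intro t ht
    rw [hT'] at ht
    obtain ⟨t', ht', rfl⟩ := ht
    obtain ⟨j, hj⟩ := T.2 ⟨t', ht'⟩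
    have h1 : t' ^ (2 ^ j) = 1 := congrArg Subtype.val hj
    have h2 : (t' : G) ^ (2 ^ j) = 1 := congrArg Subtype.val h1
    exact exp6_two (h6 _) h2
  by_cases hall : ∀ a ∈ T', x * a * x⁻¹ = a
  · -- then the image of x centralizes Tb
    have hsurj : ∀ tb ∈ Tb, ∃ t ∈ T', QuotientGroup.mk' F t = tb := by
      intro tb htb
      obtain ⟨k₀, rfl⟩ := QuotientGroup.mk'_surjective F tb
      have hk₀K : k₀ ∈ K := (hKmem k₀).mpr htb
      have hk₁K : k₀ ^ 3 ∈ K := K.pow_mem hk₀K 3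
      have hk₁2 : (⟨k₀ ^ 3, hk₁K⟩ : K) ^ (2 ^ 1) = 1 := by
        apply Subtype.ext
        change (k₀ ^ 3) ^ (2 ^ 1) = 1
        rw [← pow_mul]; exact h6 k₀
      obtain ⟨Q, hQ⟩ := (isPGroup_zpowers_of_pow_eq_one hk₁2).exists_le_sylow
      obtain ⟨g, hg⟩ := MulAction.exists_smul_eq K Q T
      have h1 : g * ⟨k₀ ^ 3, hk₁K⟩ * g⁻¹ ∈ (T : Subgroup K) := by
        rw [← hg]
        exact ⟨_, hQ (Subgroup.mem_zpowers _), rfl⟩
      refine ⟨(g : G) * k₀ ^ 3 * (g : G)⁻¹, ?_, ?_⟩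
      · rw [hT']
        exact ⟨_, h1, rfl⟩
      · have hgT : QuotientGroup.mk' F (g : G) ∈ Tb := (hKmem _).mp g.2
        have h2 : QuotientGroup.mk' F (k₀ ^ 3) = QuotientGroup.mk' F k₀ := by
          rw [map_pow, pow_succ, hTb2 _ htb, one_mul]
        rw [map_mul, map_mul, map_inv, h2,
          comm_of_sq (hTb2 _ hgT) (hTb2 _ htb) (hTb2 _ (Tb.mul_mem hgT htb)), mul_assoc,
          mul_inv_cancel, mul_one]
    have hcent : QuotientGroup.mk' F x ∈ Subgroup.centralizer (Tb : Set (G ⧸ F)) := by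
      rw [Subgroup.mem_centralizer_iff]
      intro tb htb
      obtain ⟨t, ht, rfl⟩ := hsurj tb htb
      have h1 := hall t ht
      have h2 : x * t = t * x := mul_inv_eq_iff_eq_mul.mp h1
      rw [← map_mul, ← map_mul, h2]
    have hxTb := hCT hcent
    have hx1 : QuotientGroup.mk' F x = 1 := by
      apply eq_one_of_sq_cube (hTb2 _ hxTb)
      rw [← map_pow, hx3, map_one]
    apply hxbT
    have h1 : QuotientGroup.mk' Tb (QuotientGroup.mk' F n) = QuotientGroup.mk' Tb xb := by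
      rw [← hx₀, ← hnk, map_mul, map_mul]
      have : QuotientGroup.mk' Tb (QuotientGroup.mk' F k) = 1 :=
        (QuotientGroup.eq_one_iff _).mpr ((hKmem k).mp hk)
      rw [this, mul_one]
    have h2 : QuotientGroup.mk' Tb xb ^ 4 = 1 := by
      rw [← h1, ← map_pow, ← map_pow, ← hx, hx1, map_one]
    have h3 : xb ^ 4 = xb := by rw [pow_succ, hxb3, one_mul]
    rw [← map_pow, h3] at h2
    exact (QuotientGroup.eq_one_iff _).mp h2
  · push Not at hall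
    obtain ⟨a, ha, hxa⟩ := hall
    exact exp6_config h6 F hF3 hCF T' hT2 x hx3 hxT a ha hxa

theorem exp6_core3 {G : Type u} [Group G] [Finite G] (h6 : ∀ x : G, x ^ 6 = 1)
    (hO : Cfsg.pPrimeCore 3 G = ⊥) : (Nat.card (G ⧸ Cfsg.pCore 3 G)).Coprime 3 := by
  haveI : Fact (Nat.Prime 3) := ⟨Nat.prime_three⟩
  haveI := exp6_solvable h6
  apply exp6_core3' h6 (Cfsg.pCore 3 G) _ (Cfsg.Agent.Lib.Helper1.centralizer_pCore_le 3 hO)
    (Cfsg.Agent.Lib.Helper21.pCore_quotient_eq_bot 3)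
  intro y hy
  obtain ⟨k, hk⟩ := Cfsg.Agent.Lib.Helper1.pCore_isPGroup (G := G) 3 ⟨y, hy⟩
  exact exp6_three (h6 y) (congrArg Subtype.val hk)

theorem exp6_core2 {G : Type u} [Group G] [Finite G] (h6 : ∀ x : G, x ^ 6 = 1)
    (hO : Cfsg.pPrimeCore 2 G = ⊥) : (Nat.card (G ⧸ Cfsg.pCore 2 G)).Coprime 2 := by
  haveI : Fact (Nat.Prime 2) := ⟨Nat.prime_two⟩
  haveI := exp6_solvable h6
  have hC := Cfsg.Agent.Lib.Helper1.centralizer_pCore_le 2 hO
  obtain ⟨S⟩ : Nonempty (Sylow 2 G) := inferInstance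
  have hFS : Cfsg.pCore 2 G ≤ S := (Cfsg.Agent.Lib.Helper1.pCore_isPGroup 2).le_sylow_of_normal S
  have hS2 : ∀ s ∈ S, s ^ 2 = 1 := by
    intro s hs
    obtain ⟨k, hk⟩ := S.2 ⟨s, hs⟩
    exact exp6_two (h6 s) (congrArg Subtype.val hk)
  have hSF : (S : Subgroup G) ≤ Cfsg.pCore 2 G := by
    intro s hs
    apply hC
    rw [Subgroup.mem_centralizer_iff]
    intro f hf
    exact comm_of_sq (hS2 f (hFS hf)) (hS2 s hs) (hS2 _ (Subgroup.mul_mem _ (hFS hf) hs))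
  rw [← Subgroup.index_eq_card]
  have h1 : (Cfsg.pCore 2 G).index ∣ (S : Subgroup G).index := Subgroup.index_dvd_of_le hSF
  exact Nat.Coprime.of_dvd_left h1
    ((Nat.Prime.coprime_iff_not_dvd Nat.prime_two).mpr S.not_dvd_index).symm

theorem exp6_quot {G : Type u} [Group G] (h6 : ∀ x : G, x ^ 6 = 1) (N : Subgroup G) [N.Normal] :
    ∀ x : G ⧸ N, x ^ 6 = 1 := by
  intro x
  obtain ⟨g, rfl⟩ := QuotientGroup.mk'_surjective N x
  rw [← map_pow, h6, map_one]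

theorem pLength_one_of_core {G : Type u} [Group G] [Finite G] (p : ℕ) [Fact p.Prime]
    (h : (Nat.card ((G ⧸ Cfsg.pPrimeCore p G) ⧸ Cfsg.pCore p (G ⧸ Cfsg.pPrimeCore p G))).Coprime p) :
    Cfsg.PLengthLE p 1 G := by
  have h2 : Cfsg.PLengthLE p (1 + 0) (G ⧸ Cfsg.pPrimeCore p G) :=
    Cfsg.Agent.Lib.Helper29.PLengthLE.of_normal (Cfsg.pCore p (G ⧸ Cfsg.pPrimeCore p G))
      (Cfsg.Agent.Lib.Helper29.pLengthLE_one_of_isPGroup (Cfsg.Agent.Lib.Helper1.pCore_isPGroup p))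
      (Cfsg.Agent.Lib.Helper29.pLengthLE_zero_of_coprime h)
  have h3 : Cfsg.PLengthLE p (0 + (1 + 0)) G :=
    Cfsg.Agent.Lib.Helper29.PLengthLE.of_normal (Cfsg.pPrimeCore p G)
      (Cfsg.Agent.Lib.Helper29.pLengthLE_zero_of_coprime
        (Cfsg.Agent.Lib.Helper1.pPrimeCore_spec p).2) h2
  exact h3

theorem exp6_pLength {G : Type u} [Group G] [Finite G] (h6 : ∀ x : G, x ^ 6 = 1) :
    Cfsg.PLengthLE 2 1 G ∧ Cfsg.PLengthLE 3 1 G := by
  haveI : Fact (Nat.Prime 2) := ⟨Nat.prime_two⟩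
  haveI : Fact (Nat.Prime 3) := ⟨Nat.prime_three⟩
  constructor
  · apply pLength_one_of_core
    exact exp6_core2 (exp6_quot h6 _) Cfsg.Agent.Lib.Helper29.pPrimeCore_quotient_self
  · apply pLength_one_of_core
    exact exp6_core3 (exp6_quot h6 _) Cfsg.Agent.Lib.Helper29.pPrimeCore_quotient_self

end Cfsg.Agent.Lib.Helper17
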