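import Mathlib
import Cfsg.Agent.Lib.Helper1.CoprimeSylow
import Cfsg.Agent.Lib.Helper17.ZCor

/-! Invariant Sylow subgroups for an isolated involution (via `Z*`). -/

set_option autoImplicit false
open Pointwise

namespace Cfsg.Agent.Lib.Helper17

open Cfsg Cfsg.Agent.Lib.Helper1

variable {G : Type*} [Group G] [Finite G]

theorem zc_mem_normalizer_sup {z : G} (hz : IsIsolatedInvolution z) (H : Subgroup G) :
    z ∈ Subgroup.normalizer ((oddCore G ⊔ H : Subgroup G) : Set G) := by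
  apply mem_normalizer_of_conj_mem
  intro u hu
  have h1 : z * u * z⁻¹ * u⁻¹ ∈ oddCore G ⊔ H :=
    (le_sup_left : oddCore G ≤ oddCore G ⊔ H) (Cfsg.Agent.Lib.Helper2.zstar_isolatedInvolution' hz u)
  have := Subgroup.mul_mem _ h1 hu
  simpa using this

theorem zc_odd_card_sup {p : ℕ} [Fact p.Prime] (hp : p ≠ 2) {H : Subgroup G} (hH : IsPGroup p H) :
    Odd (Nat.card ↥(oddCore G ⊔ H)) := by
  haveI : (oddCore G).Normal := Cfsg.pPrimeCore_normal 2 G
  have h1 := card_sup_dvd_of_normal H (oddCore G)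
  rw [sup_comm] at h1
  obtain ⟨n, hn⟩ := IsPGroup.iff_card.mp hH
  have hpo : Odd p := (Fact.out : p.Prime).odd_of_ne_two hp
  have h2 : Odd (Nat.card H * Nat.card (oddCore G)) := by
    rw [hn]; exact (hpo.pow).mul Cfsg.Agent.Lib.Helper2.odd_card_oddCore
  exact h2.of_dvd_nat h1

theorem zc_zpowers_data {z : G} (hz : orderOf z = 2) {K : Subgroup G} (hK : Odd (Nat.card K)) :
    (Nat.card (Subgroup.zpowers z)).Coprime (Nat.card K) ∧
      (Group.IsSolvable (Subgroup.zpowers z) ∨ Group.IsSolvable K) := by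
  refine ⟨?_, Or.inl inferInstance⟩
  rw [zc_card_zpowers_two hz]; exact (Nat.coprime_two_left).mpr hK

/-- An invariant `p`-subgroup (`p` odd) of an isolated involution lies in an invariant Sylow `p`-subgroup. -/
theorem zc_exists_invariant_sylow_ge {z : G} (hz : IsIsolatedInvolution z) {p : ℕ} [Fact p.Prime]
    (hp : p ≠ 2) (U : Subgroup G) (hU : IsPGroup p U) (hzU : z ∈ Subgroup.normalizer (U : Set G)) :
    ∃ P : Sylow p G, U ≤ P ∧ z ∈ Subgroup.normalizer ((P : Subgroup G) : Set G) := by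
  obtain ⟨P₀, hP₀⟩ := hU.exists_le_sylow
  obtain ⟨W, hW⟩ : ∃ W : Subgroup G, W = oddCore G ⊔ P₀ := ⟨_, rfl⟩
  have hWodd : Odd (Nat.card W) := by rw [hW]; exact zc_odd_card_sup hp P₀.2
  have hzW : z ∈ Subgroup.normalizer (W : Set G) := by rw [hW]; exact zc_mem_normalizer_sup hz _
  have hPW : (P₀ : Subgroup G) ≤ W := by rw [hW]; exact le_sup_right
  obtain ⟨hcop, hsol⟩ := zc_zpowers_data hz.1 hWodd
  obtain ⟨T, hUT, hT⟩ := coprime_invariant_psubgroup_le (Subgroup.zpowers z) W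
    (by rw [Subgroup.zpowers_le]; exact hzW) hcop hsol p U (hP₀.trans hPW) hU
    (by rw [Subgroup.zpowers_le]; exact hzU)
  have hidx : ¬ p ∣ (sylImg T).index := by
    rw [sylImg, Subgroup.index_map_subtype]
    intro h
    rcases (Nat.Prime.dvd_mul Fact.out).mp h with h | h
    · exact T.not_dvd_index h
    · exact P₀.not_dvd_index (h.trans (Subgroup.index_dvd_of_le hPW))
  refine ⟨(sylImg_isPGroup T).toSylow hidx, hUT, hT (Subgroup.mem_zpowers z)⟩

/-- Two Sylow `p`-subgroups (`p` odd) invariant under an isolated involution are conjugate in its centralizer. -/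
theorem zc_invariant_sylow_conj {z : G} (hz : IsIsolatedInvolution z) {p : ℕ} [Fact p.Prime]
    (hp : p ≠ 2) (P P' : Sylow p G) (hP : z ∈ Subgroup.normalizer ((P : Subgroup G) : Set G))
    (hP' : z ∈ Subgroup.normalizer ((P' : Subgroup G) : Set G)) :
    ∃ c ∈ Subgroup.centralizer ({z} : Set G), MulAut.conj c • (P' : Subgroup G) = P := by
  obtain ⟨g, hg⟩ := MulAction.exists_smul_eq G P' P
  have hg' : MulAut.conj g • (P' : Subgroup G) = P := by
    rw [← hg]; rfl
  obtain ⟨v, hv, hvg⟩ := zc_conj_by_oddCore hz g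
  obtain ⟨c₀, hc₀⟩ : ∃ c₀ : G, c₀ = v⁻¹ * g := ⟨_, rfl⟩
  have hgc : g = v * c₀ := by rw [hc₀]; group
  have hc₀z : c₀⁻¹ * z * c₀ = z := by
    have h1 : c₀ * z * c₀⁻¹ = z := by
      rw [hc₀]
      calc v⁻¹ * g * z * (v⁻¹ * g)⁻¹ = v⁻¹ * (g * z * g⁻¹) * v := by group
        _ = z := by rw [hvg]; group
    calc c₀⁻¹ * z * c₀ = c₀⁻¹ * (c₀ * z * c₀⁻¹) * c₀ := by rw [h1]
      _ = z := by group
  have hc₀C : c₀ ∈ Subgroup.centralizer ({z} : Set G) := by
    rw [Subgroup.mem_centralizer_singleton_iff]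
    calc c₀ * z = c₀ * (c₀⁻¹ * z * c₀) := by rw [hc₀z]
      _ = z * c₀ := by group
  obtain ⟨P₁, hP₁⟩ : ∃ P₁ : Sylow p G, P₁ = c₀ • P' := ⟨_, rfl⟩
  have hP₁' : (P₁ : Subgroup G) = MulAut.conj c₀ • (P' : Subgroup G) := by rw [hP₁]; rfl
  have hzP₁ : z ∈ Subgroup.normalizer ((P₁ : Subgroup G) : Set G) := by
    rw [hP₁', mem_normalizer_conj_smul, hc₀z]; exact hP'
  have hvP : MulAut.conj v • (P₁ : Subgroup G) = P := by
    rw [hP₁', ← conj_mul_smul, ← hgc, hg']
  obtain ⟨W, hW⟩ : ∃ W : Subgroup G, W = oddCore G ⊔ P := ⟨_, rfl⟩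
  have hWodd : Odd (Nat.card W) := by rw [hW]; exact zc_odd_card_sup hp P.2
  have hzW : z ∈ Subgroup.normalizer (W : Set G) := by rw [hW]; exact zc_mem_normalizer_sup hz _
  have hPW : (P : Subgroup G) ≤ W := by rw [hW]; exact le_sup_right
  have hvW : v ∈ W := by rw [hW]; exact (le_sup_left : oddCore G ≤ _) hv
  have hP₁W : (P₁ : Subgroup G) ≤ W := by
    intro x hx
    have h1 : v * x * v⁻¹ ∈ (P : Subgroup G) := by
      rw [← hvP]; exact conj_mem_conj_smul hx
    have h2 := W.mul_mem (W.mul_mem (W.inv_mem hvW) (hPW h1)) hvW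
    have e : v⁻¹ * (v * x * v⁻¹) * v = x := by group
    rwa [e] at h2
  have hrel : ∀ R : Sylow p G, (R : Subgroup G) ≤ W → ¬ p ∣ (R : Subgroup G).relIndex W := by
    intro R hR h
    exact R.not_dvd_index (h.trans (Dvd.intro _ (Subgroup.relIndex_mul_index hR)))
  obtain ⟨T, hT⟩ := exists_sylow_sylImg_eq p hPW P.2 (hrel P hPW)
  obtain ⟨T₁, hT₁⟩ := exists_sylow_sylImg_eq p hP₁W P₁.2 (hrel P₁ hP₁W)
  obtain ⟨hcop, hsol⟩ := zc_zpowers_data hz.1 hWodd
  obtain ⟨c₁, hc₁, hc₁T⟩ := coprime_invariant_sylow_conj (Subgroup.zpowers z) W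
    (by rw [Subgroup.zpowers_le]; exact hzW) hcop hsol p T₁ T
    (by rw [Subgroup.zpowers_le, hT₁]; exact hzP₁) (by rw [Subgroup.zpowers_le, hT]; exact hP)
  have h3 : MulAut.conj (c₁ : G) • (P₁ : Subgroup G) = P := by
    rw [← hT₁, ← sylImg_conj_smul, hc₁T, hT]
  refine ⟨(c₁ : G) * c₀, Subgroup.mul_mem _ ?_ hc₀C, ?_⟩
  · rw [Subgroup.mem_centralizer_singleton_iff]
    exact (Subgroup.mem_centralizer_iff.mp hc₁ z (Subgroup.mem_zpowers z)).symm
  · rw [conj_mul_smul, ← hP₁', h3]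

/-- For an isolated involution `z` and a `z`-invariant Sylow `p`-subgroup `P` (`p` odd), `C_P(z)` is a Sylow
`p`-subgroup of `C_G(z)`. -/
theorem zc_inf_centralizer_sylow {z : G} (hz : IsIsolatedInvolution z) {p : ℕ} [Fact p.Prime]
    (hp : p ≠ 2) (P : Sylow p G) (hP : z ∈ Subgroup.normalizer ((P : Subgroup G) : Set G)) :
    ¬ p ∣ ((P : Subgroup G) ⊓ Subgroup.centralizer ({z} : Set G)).relIndex
      (Subgroup.centralizer ({z} : Set G)) := by
  obtain ⟨Y⟩ : Nonempty (Sylow p (Subgroup.centralizer ({z} : Set G))) := inferInstance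
  have hYC : sylImg Y ≤ Subgroup.centralizer ({z} : Set G) := sylImg_le Y
  have hzY : z ∈ Subgroup.normalizer (sylImg Y : Set G) := by
    apply mem_normalizer_of_conj_mem
    intro u hu
    have := Subgroup.mem_centralizer_singleton_iff.mp (hYC hu)
    have e : z * u * z⁻¹ = u := by rw [← this]; group
    rw [e]; exact hu
  obtain ⟨P', hYP', hzP'⟩ := zc_exists_invariant_sylow_ge hz hp (sylImg Y) (sylImg_isPGroup Y) hzY
  obtain ⟨c, hc, hcP⟩ := zc_invariant_sylow_conj hz hp P P' hP hzP'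
  have hle : (((⟨c, hc⟩ : Subgroup.centralizer ({z} : Set G)) • Y : Sylow p _) : Subgroup _) ≤
      ((P : Subgroup G) ⊓ Subgroup.centralizer ({z} : Set G)).subgroupOf
        (Subgroup.centralizer ({z} : Set G)) := by
    intro y hy
    rw [Subgroup.mem_subgroupOf]
    refine ⟨?_, y.2⟩
    have h1 : (y : G) ∈ sylImg ((⟨c, hc⟩ : Subgroup.centralizer ({z} : Set G)) • Y) := ⟨y, hy, rfl⟩
    rw [sylImg_smul] at h1
    rw [mem_conj_smul] at h1
    have h2 : (y : G) ∈ MulAut.conj c • (P' : Subgroup G) := mem_conj_smul.mpr (hYP' h1)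
    rw [hcP] at h2
    exact h2
  have hpg : IsPGroup p (((P : Subgroup G) ⊓ Subgroup.centralizer ({z} : Set G)).subgroupOf
        (Subgroup.centralizer ({z} : Set G))) :=
    (P.2.to_le inf_le_left).comap_subtype
  have heq := ((⟨c, hc⟩ : Subgroup.centralizer ({z} : Set G)) • Y).is_maximal' hpg hle
  rw [Subgroup.relIndex, heq]
  exact Sylow.not_dvd_index _

end Cfsg.Agent.Lib.Helper17
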