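import Mathlib
import Cfsg.Agent.Lib.Helper17.ZCor

/-! Counting the elements inverted by an involution acting on a group of odd order. -/

set_option autoImplicit false

namespace Cfsg.Agent.Lib.Helper17

variable {G : Type*} [Group G] [Finite G]

theorem zc_relIndex_eq_card_inverted {z : G} (hz : orderOf z = 2) (P : Subgroup G)
    (hPodd : Odd (Nat.card P)) (hzP : z ∈ Subgroup.normalizer (P : Set G)) :
    (P ⊓ Subgroup.centralizer ({z} : Set G)).relIndex P =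
      Nat.card {x : G // x ∈ P ∧ z * x * z⁻¹ = x⁻¹} := by
  have hzi := zc_inv_eq hz
  have hz2 : z * z = 1 := by
    have h : z ^ 2 = 1 := by rw [← hz]; exact pow_orderOf_eq_one z
    rw [← sq, h]
  have hconj : ∀ x ∈ P, z * x * z⁻¹ ∈ P := fun x hx => (Subgroup.mem_normalizer_iff.mp hzP x).mp hx
  obtain ⟨D, hD⟩ : ∃ D : Subgroup P, D = (P ⊓ Subgroup.centralizer ({z} : Set G)).subgroupOf P := ⟨_, rfl⟩
  obtain ⟨φ, hφ⟩ : ∃ φ : P → {x : G // x ∈ P ∧ z * x * z⁻¹ = x⁻¹},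
      ∀ x : P, ((φ x : {x : G // x ∈ P ∧ z * x * z⁻¹ = x⁻¹}) : G) = (x : G) * (z * (x : G)⁻¹ * z⁻¹) := by
    refine ⟨fun x => ⟨(x : G) * (z * (x : G)⁻¹ * z⁻¹),
      P.mul_mem x.2 (hconj _ (P.inv_mem x.2)), ?_⟩, fun x => rfl⟩
    rw [hzi]
    calc z * ((x : G) * (z * (x : G)⁻¹ * z)) * z = z * x * (z * (x : G)⁻¹ * (z * z)) := by group
      _ = z * x * z * (x : G)⁻¹ := by rw [hz2]; group
      _ = z * x * z⁻¹ * (x : G)⁻¹ := by rw [hzi]
      _ = ((x : G) * (z * (x : G)⁻¹ * z⁻¹))⁻¹ := by group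
      _ = _ := by rw [hzi]
  have hiff : ∀ x y : P, φ x = φ y ↔ x⁻¹ * y ∈ D := by
    intro x y
    rw [hD, Subgroup.mem_subgroupOf, Subgroup.mem_inf, Subgroup.mem_centralizer_singleton_iff,
      Subtype.ext_iff, hφ, hφ]
    constructor
    · intro h
      refine ⟨(x⁻¹ * y).2, ?_⟩
      push_cast
      have h1 : (y : G)⁻¹ * x = z * ((y : G)⁻¹ * x) * z⁻¹ := by
        calc (y : G)⁻¹ * x = (y : G)⁻¹ * ((x : G) * (z * (x : G)⁻¹ * z⁻¹)) * (z * x * z⁻¹) := by group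
          _ = (y : G)⁻¹ * ((y : G) * (z * (y : G)⁻¹ * z⁻¹)) * (z * x * z⁻¹) := by rw [h]
          _ = _ := by group
      have h2 : (x : G)⁻¹ * y = z * ((x : G)⁻¹ * y) * z⁻¹ := by
        have := congrArg (fun t => t⁻¹) h1
        simp only [mul_inv_rev, inv_inv] at this
        rw [mul_assoc z]; exact this
      calc (x : G)⁻¹ * y * z = (z * ((x : G)⁻¹ * y) * z⁻¹) * z := by rw [← h2]
        _ = _ := by group
    · rintro ⟨-, h⟩
      push_cast at h
      have h2 : z * ((x : G)⁻¹ * y) * z⁻¹ = (x : G)⁻¹ * y := by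
        rw [← h]; group
      have h3 : z * ((y : G)⁻¹ * x) * z⁻¹ = (y : G)⁻¹ * x := by
        have := congrArg (fun t => t⁻¹) h2
        simp only [mul_inv_rev, inv_inv] at this
        rw [mul_assoc z]; exact this
      calc (x : G) * (z * (x : G)⁻¹ * z⁻¹) = y * ((y : G)⁻¹ * x) * (z * (x : G)⁻¹ * z⁻¹) := by group
        _ = y * (z * ((y : G)⁻¹ * x) * z⁻¹) * (z * (x : G)⁻¹ * z⁻¹) := by rw [h3]
        _ = _ := by group
  have hsurj : ∀ w : {x : G // x ∈ P ∧ z * x * z⁻¹ = x⁻¹}, ∃ x : P, φ x = w := by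
    rintro ⟨w, hw, hwz⟩
    obtain ⟨m, hm⟩ := hPodd
    have hwo : w ^ (2 * m + 1) = 1 := by
      have : (⟨w, hw⟩ : P) ^ Nat.card P = 1 := pow_card_eq_one'
      rw [hm] at this
      have := congrArg Subtype.val this
      simpa using this
    refine ⟨⟨w ^ (m + 1), P.pow_mem hw _⟩, ?_⟩
    rw [Subtype.ext_iff, hφ]
    have h2 : z * (w ^ (m+1))⁻¹ * z⁻¹ = w ^ (m + 1) := by
      have : z * (w ^ (m+1))⁻¹ * z⁻¹ = ((z * w * z⁻¹) ^ (m+1))⁻¹ := by
        rw [conj_pow]; group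
      rw [this, hwz, inv_pow, inv_inv]
    change w ^ (m+1) * (z * (w ^ (m+1))⁻¹ * z⁻¹) = w
    rw [h2, ← pow_add]
    have : m + 1 + (m + 1) = (2 * m + 1) + 1 := by ring
    rw [this, pow_succ, hwo, one_mul]
  rw [Subgroup.relIndex, ← hD, Subgroup.index_eq_card]
  refine Nat.card_congr (Equiv.ofBijective
    (Quotient.lift φ (fun a b h => (hiff a b).mpr (QuotientGroup.leftRel_apply.mp h))) ⟨?_, ?_⟩)
  · intro a b
    induction a using QuotientGroup.induction_on with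
    | H a =>
    induction b using QuotientGroup.induction_on with
    | H b =>
    intro h
    exact QuotientGroup.eq.mpr ((hiff a b).mp h)
  · intro w
    obtain ⟨x, hx⟩ := hsurj w
    exact ⟨(x : P ⧸ D), hx⟩

end Cfsg.Agent.Lib.Helper17
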